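import Cfsg.Agent.H94.CentricRes
import Cfsg.Agent.H94.SimpleCriterion

/-! Elements of a group inducing maps of a subsystem on a given subgroup. -/

set_option autoImplicit false

namespace Cfsg.Agent.H94

open Cfsg Cfsg.FusionSystem

variable {G : Type*} [Group G] {S : Subgroup G}

/-- The elements whose conjugation is an automorphism of `R` in the system `E`. -/
def localSubgroup (E : FusionSystem S) (R : Subgroup G) : Subgroup G where
  carrier := {g | ∃ b ∈ E.autGroup R, ∀ x : R, ((b x : R) : G) = g * (x : G) * g⁻¹}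
  one_mem' := ⟨1, one_mem _, fun x => by simp⟩
  mul_mem' := by
    rintro g k ⟨b, hb, hbe⟩ ⟨c, hc, hce⟩
    exact ⟨b * c, mul_mem hb hc, fun x => by
      show ((b (c x) : R) : G) = _
      rw [hbe, hce]; group⟩
  inv_mem' := by
    rintro g ⟨b, hb, hbe⟩
    refine ⟨b⁻¹, Subgroup.inv_mem _ hb, fun x => ?_⟩
    have := hbe (b⁻¹ x)
    rw [show b (b⁻¹ x) = x from b.apply_symm_apply x] at this
    rw [this]; group

theorem mem_normalizer_of_forall [Finite G] {R : Subgroup G} {g : G} (h : ∀ x ∈ R, g * x * g⁻¹ ∈ R) :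
    g ∈ Subgroup.normalizer (R : Set G) := by
  have heq : R.map (MulAut.conj g).toMonoidHom = R := by
    refine Subgroup.eq_of_le_of_card_ge (by rintro _ ⟨x, hx, rfl⟩; exact h x hx) ?_
    exact (Subgroup.card_map_of_injective (MulAut.conj g).injective).ge
  refine Subgroup.mem_normalizer_iff.2 fun x => ⟨h x, fun hx => ?_⟩
  obtain ⟨y, hy, hyx⟩ := heq.ge hx
  rwa [show x = y from ((MulAut.conj g).injective hyx).symm]

theorem mem_normalizer_of_mem_localSubgroup [Finite G] {E : FusionSystem S} {R : Subgroup G} {g : G}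
    (hg : g ∈ localSubgroup E R) : g ∈ Subgroup.normalizer (R : Set G) := by
  obtain ⟨b, -, hbe⟩ := hg
  exact mem_normalizer_of_forall fun x hx => hbe ⟨x, hx⟩ ▸ (b _).2

theorem mem_localSubgroup_of_mem {E : FusionSystem S} {R : Subgroup G} (hR : R ≤ S) {g : G} (hg : g ∈ S)
    (hn : g ∈ Subgroup.normalizer (R : Set G)) : g ∈ localSubgroup E R := by
  obtain ⟨b, hb, hbe⟩ := exists_autInducedBy hg hn
  exact ⟨b, H96.autInducedBy_le_autGroup E hR hb, hbe⟩

variable [Finite G] {p : ℕ} [Fact p.Prime]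

theorem conj_mem_localSubgroup (S : Sylow p G) {E : FusionSystem (S : Subgroup G)}
    (hsi : StronglyInvariant E (groupFusionSystem (S : Subgroup G))) {R : Subgroup G}
    (hR : R ≤ (S : Subgroup G)) {g k : G} (hg : g ∈ Subgroup.normalizer (R : Set G))
    (hk : k ∈ localSubgroup E R) : g * k * g⁻¹ ∈ localSubgroup E R := by
  obtain ⟨c, hc, hce⟩ := exists_autInducedBy (Subgroup.mem_top g) hg
  rw [← H93.autGroup_groupFusion S hR] at hc
  obtain ⟨b, hb, hbe⟩ := hk
  refine ⟨c * b * c⁻¹, autGroup_conj_mem hsi le_rfl hR hc hb, fun x => ?_⟩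
  have := hce (c⁻¹ x)
  rw [show c (c⁻¹ x) = x from c.apply_symm_apply x] at this
  show ((c (b (c⁻¹ x)) : R) : G) = _
  rw [hce, hbe, this]
  group

theorem pElement_mem_localSubgroup (S : Sylow p G) {E : FusionSystem (S : Subgroup G)}
    (hsi : StronglyInvariant E (groupFusionSystem (S : Subgroup G))) {R : Subgroup G}
    (hR : (groupFusionSystem (S : Subgroup G)).IsFullyNormalized R) {g : G}
    (hg : g ∈ Subgroup.normalizer (R : Set G)) {k : ℕ} (hk : g ^ p ^ k = 1) : g ∈ localSubgroup E R := by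
  obtain ⟨c, hc, hce⟩ := exists_autInducedBy (Subgroup.mem_top g) hg
  rw [← H93.autGroup_groupFusion S hR.1] at hc
  refine ⟨c, pElement_mem_autGroup S.isPGroup' (H93.isSaturated_groupFusionSystem S) hR
    (fun a ha b hb => autGroup_conj_mem hsi le_rfl hR.1 ha hb) hc (k := k) ?_, hce⟩
  have hpow : ∀ (n : ℕ) (x : R), (((c ^ n) x : R) : G) = g ^ n * (x : G) * (g ^ n)⁻¹ := by
    intro n
    induction n with
    | zero => simp
    | succ n ih =>
      intro x
      rw [pow_succ', MulAut.mul_apply, hce, ih, pow_succ']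
      group
  refine MulEquiv.ext fun x => Subtype.ext ?_
  rw [hpow, hk]
  simp

/-- A subgroup containing its centralizer is centric. -/
theorem isCentric_of_centralizer_le (S : Sylow p G) {R : Subgroup G} (hR : R ≤ (S : Subgroup G))
    (hC : Subgroup.centralizer (R : Set G) ≤ R) : (groupFusionSystem (S : Subgroup G)).IsCentric R := by
  refine ⟨hR, fun Q hQ => ?_⟩
  obtain ⟨φ, ⟨-, -, g, hg⟩, rfl⟩ := hQ
  rintro y ⟨-, hy⟩
  have hy' : g⁻¹ * y * g ∈ Subgroup.centralizer (R : Set G) := Subgroup.mem_centralizer_iff.2 fun r hr => by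
    have h := Subgroup.mem_centralizer_iff.1 hy (φ ⟨r, hr⟩) ⟨⟨r, hr⟩, rfl⟩
    rw [hg] at h
    calc r * (g⁻¹ * y * g) = g⁻¹ * (g * r * g⁻¹ * y) * g := by group
      _ = g⁻¹ * (y * (g * r * g⁻¹)) * g := by rw [h]
      _ = g⁻¹ * y * g * r := by group
  refine ⟨⟨_, hC hy'⟩, ?_⟩
  rw [hg]
  group

/-- Extension from a centric subgroup, then restriction. -/
theorem mem_localSubgroup_of_centric (S : Sylow p G) {E : FusionSystem (S : Subgroup G)}
    (hEs : E.IsSaturated p) (hle : E ≤ groupFusionSystem (S : Subgroup G)) {R X Y : Subgroup G}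
    (hRc : (groupFusionSystem (S : Subgroup G)).IsCentric R) (hRX : R ≤ X) (hX : X ≤ (S : Subgroup G))
    (hYX : Y ≤ X) {g : G} (hgR : g ∈ localSubgroup E R) (hgX : g ∈ Subgroup.normalizer (X : Set G))
    (hgY : g ∈ Subgroup.normalizer (Y : Set G)) : g ∈ localSubgroup E Y := by
  obtain ⟨α, hα, hαe⟩ := exists_autInducedBy (Subgroup.mem_top g) hgX
  rw [← H93.autGroup_groupFusion S hX] at hα
  obtain ⟨b, hb, hbe⟩ := hgR
  have hαE : α ∈ E.autGroup X := autGroup_mem_of_res_centric_le S.isPGroup'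
    (H93.isSaturated_groupFusionSystem S) hEs hle hX hα hRc hRX
    ((H96.mem_autGroup E hRc.1).1 hb) fun x hx => (hbe x).trans (hαe ⟨x, hx⟩).symm
  obtain ⟨c, hc, hce⟩ := H96.exists_autGroup_of_mem E
    (H96.res_mem E ((H96.mem_autGroup E hX).1 hαE) hYX) (fun x => by
      show ((α ⟨x, hYX x.2⟩ : X) : G) ∈ Y
      rw [hαe]
      exact (Subgroup.mem_normalizer_iff.1 hgY x).1 x.2)
  exact ⟨c, hc, fun x => (hce x).trans (hαe ⟨x, hYX x.2⟩)⟩

/-- An element normalizing `S` and inducing a map of `E` on a centric subgroup induces one on `S`. -/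
theorem autInducedBy_top_le_of_local (S : Sylow p G) {E : FusionSystem (S : Subgroup G)}
    (hEs : E.IsSaturated p) (hle : E ≤ groupFusionSystem (S : Subgroup G)) {R : Subgroup G}
    (hRc : (groupFusionSystem (S : Subgroup G)).IsCentric R)
    (h : ∀ g ∈ Subgroup.normalizer ((S : Subgroup G) : Set G), g ∈ localSubgroup E R) :
    (groupFusionSystem (S : Subgroup G)).autGroup S ≤ E.autGroup S := by
  intro α hα
  have hα' := hα
  rw [H93.autGroup_groupFusion S le_rfl] at hα'
  obtain ⟨g, -, hge⟩ := H96.mem_autInducedBy.1 hα'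
  obtain ⟨b, hb, hbe⟩ := h g (mem_normalizer_of_forall fun x hx => hge ⟨x, hx⟩ ▸ (α _).2)
  exact autGroup_mem_of_res_centric S.isPGroup' (H93.isSaturated_groupFusionSystem S) hEs hle hα hRc
    ((H96.mem_autGroup E hRc.1).1 hb) fun x hx => (hbe x).trans (hge ⟨x, hx⟩).symm

end Cfsg.Agent.H94
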