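import Cfsg.Agent.H94.AltFusion.SylowNormalizer
import Cfsg.Agent.H94.AltFusion.Local
import Cfsg.Agent.H70.SLGen

/-! The fusion system of an alternating group of suitable degree is simple. -/

set_option autoImplicit false

namespace Cfsg.Agent.H94.AltFusion

open Equiv Equiv.Perm Cfsg Cfsg.FusionSystem
open scoped Pointwise

variable {p r e : ℕ} [hp : Fact p.Prime]

section Linear

/-- A quarter turn of the plane. -/
def turn : Matrix.SpecialLinearGroup (Fin 2) (ZMod p) :=
  ⟨!![0, -1; 1, 0], by simp [Matrix.det_fin_two]⟩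

/-- A subgroup normalized by the quarter turn and containing the lower transvections is everything. -/
theorem eq_top_of_lower (H : Subgroup (Matrix.SpecialLinearGroup (Fin 2) (ZMod p)))
    (h : ∀ t, Matrix.SpecialLinearGroup.transvection (show (1 : Fin 2) ≠ 0 by decide) t ∈ H)
    (hc : ∀ x ∈ H, turn * x * turn⁻¹ ∈ H) : H = ⊤ := by
  refine H70.eq_top_of_transvection_mem H fun i j hij t => ?_
  fin_cases i <;> fin_cases j
  · exact absurd rfl hij
  · have e : Matrix.SpecialLinearGroup.transvection hij t =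
        turn * Matrix.SpecialLinearGroup.transvection (show (1 : Fin 2) ≠ 0 by decide) (-t) * turn⁻¹ := by
      rw [eq_mul_inv_iff_mul_eq]
      apply Subtype.ext
      show (Matrix.transvection (0 : Fin 2) 1 t * !![0, -1; 1, 0] : Matrix (Fin 2) (Fin 2) (ZMod p)) =
        !![0, -1; 1, 0] * Matrix.transvection (1 : Fin 2) 0 (-t)
      ext a b
      fin_cases a <;> fin_cases b <;> simp [Matrix.transvection, Matrix.mul_apply, Fin.sum_univ_two]
    rw [e]
    exact hc _ (h (-t))
  · exact h t
  · exact absurd rfl hij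

theorem lin_lower (t : ZMod p) :
    (lin (Matrix.SpecialLinearGroup.transvection (show (1 : Fin 2) ≠ 0 by decide) t) : Perm (Pt p r e)) =
      shift (Sum.elim (fun y => t * y) fun _ => 0) := by
  refine ext_pt (fun b a => ?_) fun x => rfl
  rcases b with y | j
  · simp [lin_inl_inl, Matrix.SpecialLinearGroup.transvection_coe, add_comm]
  · simp [lin_inl_inr]

theorem sign_lin (hp2 : p ≠ 2) (A : Matrix.SpecialLinearGroup (Fin 2) (ZMod p)) :
    sign (lin A : Perm (Pt p r e)) = 1 := by
  have h := eq_top_of_lower ((sign.comp (lin (p := p) (r := r) (e := e))).ker)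
    (fun t => by rw [MonoidHom.mem_ker, MonoidHom.comp_apply, lin_lower, sign_shift_of_odd hp2])
    fun x hx => by rw [MonoidHom.mem_ker, map_mul, map_mul, MonoidHom.mem_ker.1 hx, mul_one, map_inv, mul_inv_cancel]
  have : A ∈ ((sign.comp (lin (p := p) (r := r) (e := e))).ker) := by rw [h]; trivial
  exact MonoidHom.mem_ker.1 this

theorem lin_conj_plane (A : Matrix.SpecialLinearGroup (Fin 2) (ZMod p)) {σ : Perm (Pt p r e)}
    (hσ : σ ∈ planeGroup p r e) : lin A * σ * (lin A)⁻¹ ∈ planeGroup p r e := by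
  obtain ⟨v, c, hv, rfl⟩ := hσ
  refine ⟨Sum.elim (fun _ => A.1 1 0 * c + A.1 1 1 * v (Sum.inl 0)) (fun j => v (Sum.inr j)),
    A.1 0 0 * c + A.1 0 1 * v (Sum.inl 0), fun y => rfl, ?_⟩
  rw [mul_inv_eq_iff_eq_mul]
  refine ext_pt (fun b a => ?_) fun x => by simp [lin_inr]
  rcases b with y | j
  · simp only [Perm.mul_apply, blockPerm_inl, rho_inl, shift_inl, lin_inl_inl, Sum.elim_inl, Sum.inl.injEq,
      Prod.mk.injEq]
    rw [hv (y + c)]
    constructor <;> ring
  · simp [lin_inl_inr]

/-- The diagonal of the plane is monomial. -/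
theorem lin_diag (c : (ZMod p)ˣ) :
    (lin (Matrix.SpecialLinearGroup.diag2n (show (0 : Fin 2) ≠ 1 by decide) ((c⁻¹ : (ZMod p)ˣ) : ZMod p)
      (Units.ne_zero _)) : Perm (Pt p r e)) =
      mon (Equiv.sumCongr (Units.mulLeft c⁻¹) (Equiv.refl _)) (Sum.elim (fun _ => c) fun _ => 1) := by
  refine ext_pt (fun b a => ?_) fun x => rfl
  rcases b with y | j
  · rw [lin_inl_inl, mon_inl, Matrix.SpecialLinearGroup.diag2n_coe, Matrix.diagonal_apply_eq,
      Matrix.diagonal_apply_eq, Matrix.diagonal_apply_ne _ (show (0 : Fin 2) ≠ 1 by decide),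
      Matrix.diagonal_apply_ne _ (show (1 : Fin 2) ≠ 0 by decide)]
    simp only [zero_mul, add_zero, zero_add, one_ne_zero, if_true, if_false, Sum.elim_inl, ← Units.val_inv_eq_inv_val, inv_inv]
    rfl
  · rw [lin_inl_inr, mon_inl]
    simp only [Sum.elim_inr, Units.val_one, one_mul]
    rfl

end Linear

theorem units_two (x : (ZMod 2)ˣ) : x = 1 := by
  revert x
  decide

namespace Setting

variable {G : Type*} [Group G] (M : Setting p r e G)

/-- The translations inside `G`. -/
def base : Subgroup G := (shifts p r e).comap M.hom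

theorem base_le : M.base ≤ (M.S : Subgroup G) := fun _ hx =>
  M.mem_S.2 (M.hP (shifts_le_lineGroup hx))

variable [Finite G]

theorem mem_normalizer_base {g : G} {w : Blk p r → ZMod p} {π : Perm (Blk p r)} {u : Blk p r → (ZMod p)ˣ}
    (h : M.hom g = shift w * mon π u) : g ∈ Subgroup.normalizer (M.base : Set G) := by
  refine mem_normalizer_of_forall fun x hx => ?_
  obtain ⟨v, hv⟩ := hx
  refine ⟨fun j => (u (π⁻¹ j) : ZMod p) * v (π⁻¹ j), ?_⟩
  rw [map_mul, map_mul, map_inv, h, ← hv, mul_inv_rev, ← mon_conj_shift (e := e) π u v]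
  calc mon π u * shift v * (mon π u)⁻¹
      = shift w * (mon π u * shift v * (mon π u)⁻¹) * (shift w)⁻¹ := by
        rw [mon_conj_shift, (shift_comm w _).eq, mul_inv_cancel_right]
    _ = shift w * mon π u * shift v * ((mon π u)⁻¹ * (shift w)⁻¹) := by group

theorem base_centric : (groupFusionSystem (M.S : Subgroup G)).IsCentric M.base := by
  refine isCentric_of_centralizer_le M.S M.base_le fun g hg => ?_
  obtain ⟨u, hu⟩ := M.eq_shift_of_commute_even (g := g) fun k hk => Subgroup.mem_centralizer_iff.1 hg k hk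
  exact ⟨u, hu.symm⟩

theorem base_fullyNormalized : (groupFusionSystem (M.S : Subgroup G)).IsFullyNormalized M.base := by
  refine ⟨M.base_le, fun Q _ => ?_⟩
  have h : normalizerIn (M.S : Subgroup G) M.base = (M.S : Subgroup G) :=
    le_antisymm inf_le_left (le_inf le_rfl fun s hs => by
      obtain ⟨w, π, u, h⟩ := M.eq_mon_of_mem_normalizer (Subgroup.le_normalizer hs)
      exact M.mem_normalizer_base h)
  rw [h]
  exact Subgroup.card_le_of_le inf_le_left

/-- The plane subgroup inside `G`. -/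
def plane : Subgroup G := (planeGroup p r e).comap M.hom

/-- The line subgroup inside `G`. -/
def line : Subgroup G := (lineGroup p r e).comap M.hom

theorem line_le : M.line ≤ (M.S : Subgroup G) := fun _ hx => M.mem_S.2 (M.hP hx)

theorem plane_le_line : M.plane ≤ M.line := fun _ hx => planeGroup_le_lineGroup hx

theorem plane_centric (hp2 : p ≠ 2) : (groupFusionSystem (M.S : Subgroup G)).IsCentric M.plane := by
  classical
  refine isCentric_of_centralizer_le M.S (M.plane_le_line.trans M.line_le) fun g hg => ?_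
  show M.hom g ∈ planeGroup p r e
  set σ := M.hom g
  have hcomm : ∀ s ∈ planeGroup p r e, σ * s = s * σ := by
    intro s hs
    obtain ⟨k, hk⟩ := isPGroup_lineGroup ⟨s, planeGroup_le_lineGroup hs⟩
    obtain ⟨x, hx⟩ := M.exists_preimage
      (sign_eq_one_of_pow ((hp.out.odd_of_ne_two hp2).pow (n := k)) (congrArg Subtype.val hk))
    have hx' : M.hom x = s := hx
    have h := Subgroup.mem_centralizer_iff.1 hg x (show M.hom x ∈ planeGroup p r e by rw [hx']; exact hs)
    rw [← hx', ← map_mul, ← map_mul, h]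
  have hmove : ∀ a c : ZMod p,
      (shift (Sum.elim (fun _ => a) fun _ => 0) * blockPerm (rho c) : Perm (Pt p r e)) ∈ planeGroup p r e :=
    fun a c => ⟨_, c, fun y => rfl, rfl⟩
  have hone : ∀ j : Fin r,
      (shift (Pi.single (Sum.inr j) 1) : Perm (Pt p r e)) ∈ planeGroup p r e := fun j =>
    ⟨Pi.single (Sum.inr j) 1, 0, fun y => by simp, by rw [rho_zero, blockPerm_one, mul_one]⟩
  obtain ⟨y₀, a₀, h0⟩ : ∃ y₀ a₀, σ (Sum.inl (Sum.inl 0, 0)) = Sum.inl (Sum.inl y₀, a₀) := by
    rcases hx : σ (Sum.inl (Sum.inl 0, 0)) with ⟨y | j, a⟩ | z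
    · exact ⟨y, a, rfl⟩
    · exfalso
      have h := congrArg (fun τ : Perm (Pt p r e) => τ (Sum.inl (Sum.inl 0, 0))) (hcomm _ (hone j))
      simp [hx] at h
    · exfalso
      have h := congrArg (fun τ : Perm (Pt p r e) => τ (Sum.inl (Sum.inl 0, 0))) (hcomm _ (hmove 1 0))
      simp [hx, rho_zero, blockPerm_one] at h
      exact absurd (σ.injective (h.trans hx.symm)) (by simp)
  have hfirst : ∀ y a, σ (Sum.inl (Sum.inl y, a)) = Sum.inl (Sum.inl (y₀ + y), a₀ + a) := by
    intro y a
    have h := congrArg (fun τ : Perm (Pt p r e) => τ (Sum.inl (Sum.inl 0, 0))) (hcomm _ (hmove a y))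
    simpa [h0] using h
  obtain ⟨σ', hσ'⟩ : ∃ τ : Perm (Pt p r e), τ = blockPerm (rho (-y₀)) * σ := ⟨_, rfl⟩
  have hfirst' : ∀ y a, σ' (Sum.inl (Sum.inl y, a)) = Sum.inl (Sum.inl y, a₀ + a) := fun y a => by
    simp [hσ', hfirst, add_comm]
  have hother : ∀ z, (∀ y a, z ≠ Sum.inl (Sum.inl y, a)) → ∀ y a, σ' z ≠ Sum.inl (Sum.inl y, a) := by
    intro z hz y a h
    rw [← show σ' (Sum.inl (Sum.inl y, a - a₀)) = Sum.inl (Sum.inl y, a) by rw [hfirst', add_sub_cancel]] at h
    exact hz _ _ (σ'.injective h)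
  have hfix : ∀ (y : ZMod p) (z : Pt p r e), (∀ y a, z ≠ Sum.inl (Sum.inl y, a)) →
      (shift (Pi.single (Sum.inl y) 1) : Perm (Pt p r e)) z = z := by
    intro y z hz
    rcases z with ⟨y' | j, a⟩ | z
    · exact absurd rfl (hz y' a)
    · exact shift_single_apply_ne (by simp) a 1
    · rfl
  obtain ⟨u, hu⟩ : ∃ u, σ' = shift u := by
    refine eq_shift_of_commute M.he fun b => ?_
    rcases b with y | j
    · have h : σ' * shift (Pi.single (Sum.inl y) 1) = shift (Pi.single (Sum.inl y) 1) * σ' := by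
        refine Equiv.ext fun z => ?_
        rw [Perm.mul_apply, Perm.mul_apply]
        by_cases hz : ∀ y a, z ≠ Sum.inl (Sum.inl y, a)
        · rw [hfix y z hz, hfix y _ (hother z hz)]
        · simp only [ne_eq, not_forall, not_not] at hz
          obtain ⟨y', a, rfl⟩ := hz
          by_cases hy : y' = y
          · subst hy; simp [hfirst', add_assoc]
          · simp [hfirst', hy]
      exact ⟨_, _, by simp, by simp, fun c hc => Or.inl (by simp [hc]), h, h⟩
    · have hr : (blockPerm (rho (-y₀)) * shift (Pi.single (Sum.inr j) 1) : Perm (Pt p r e)) =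
          shift (Pi.single (Sum.inr j) 1) * blockPerm (rho (-y₀)) := by
        rw [blockPerm_mul_shift]
        congr 2
        funext b
        simp only [rho_inv]
        rcases b with y | i <;> simp [Pi.single_apply]
      have h : σ' * shift (Pi.single (Sum.inr j) 1) = shift (Pi.single (Sum.inr j) 1) * σ' := by
        rw [hσ', mul_assoc, hcomm _ (hone j), ← mul_assoc, hr, mul_assoc]
      exact ⟨_, _, by simp, by simp, fun c hc => Or.inl (by simp [hc]), h, h⟩
  have huc : ∀ y, u (Sum.inl y) = u (Sum.inl 0) := fun y => by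
    have h1 := hfirst' y 0
    have h2 := hfirst' 0 0
    rw [hu, shift_inl] at h1 h2
    simp at h1 h2
    rw [h1, h2]
  have hσ : σ = blockPerm (rho y₀) * shift u := by
    rw [← hu, hσ', ← mul_assoc, ← blockPerm_mul, ← rho_add, add_neg_cancel, rho_zero, blockPerm_one, one_mul]
  rw [hσ]
  refine mul_mem ?_ ⟨u, 0, huc, by rw [rho_zero, blockPerm_one, mul_one]⟩
  exact ⟨0, y₀, fun _ => rfl, by rw [shift_zero, one_mul]⟩

variable {E : FusionSystem (M.S : Subgroup G)}

/-- The permutations whose conjugation on the translations is in a subsystem. -/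
def localPerms (E : FusionSystem (M.S : Subgroup G)) : Subgroup (Perm (Pt p r e)) :=
  (localSubgroup E M.base).map M.hom

theorem mon_conj_mem (hsi : StronglyInvariant E (groupFusionSystem (M.S : Subgroup G)))
    {π : Perm (Blk p r)} {u : Blk p r → (ZMod p)ˣ} (hs : sign (mon π u : Perm (Pt p r e)) = 1)
    {k : Perm (Pt p r e)} (hk : k ∈ M.localPerms E) : mon π u * k * (mon π u)⁻¹ ∈ M.localPerms E := by
  obtain ⟨n, hn⟩ := M.exists_preimage hs
  obtain ⟨x, hx, rfl⟩ := hk
  exact ⟨n * x * n⁻¹, conj_mem_localSubgroup M.S hsi M.base_le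
    (M.mem_normalizer_base (w := 0) (by rw [hn, shift_zero, one_mul])) hx, by rw [map_mul, map_mul, map_inv, hn]⟩

theorem shift_mem_localPerms {w : Blk p r → ZMod p} (hs : sign (shift w : Perm (Pt p r e)) = 1) :
    shift w ∈ M.localPerms E := by
  obtain ⟨n, hn⟩ := M.exists_preimage hs
  exact ⟨n, mem_localSubgroup_of_mem M.base_le (M.mem_S.2 (hn ▸ M.shift_mem_P w))
    (M.mem_normalizer_base (π := 1) (u := 1) (by rw [hn, mon_one, mul_one])), hn⟩

theorem blockPerm_mem_of_pow (hsi : StronglyInvariant E (groupFusionSystem (M.S : Subgroup G)))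
    {π : Perm (Blk p r)} (hπ : π ^ p = 1) : blockPerm π ∈ M.localPerms E := by
  have hσ : (blockPerm π : Perm (Pt p r e)) ^ p = 1 := by
    show (blockHom π) ^ p = 1
    rw [← map_pow, hπ, map_one]
  obtain ⟨n, hn⟩ := M.exists_preimage (σ := blockPerm π) (by rw [sign_blockPerm, ← map_pow, hπ, map_one])
  refine ⟨n, pElement_mem_localSubgroup M.S hsi M.base_fullyNormalized
    (M.mem_normalizer_base (w := 0) (u := 1) (by rw [hn, shift_zero, one_mul, mon_one_right])) (k := 1) ?_, hn⟩
  exact M.inj (by rw [pow_one, map_pow, hn, hσ, map_one])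

theorem blockPerm_mem_two (M : Setting 2 r e G) {E : FusionSystem (M.S : Subgroup G)}
    (hsi : StronglyInvariant E (groupFusionSystem (M.S : Subgroup G))) (π : Perm (Blk 2 r)) :
    blockPerm π ∈ M.localPerms E := by
  classical
  have h : (⊤ : Subgroup (Perm (Blk 2 r))) ≤ (M.localPerms E).comap blockHom := by
    rw [← Equiv.Perm.closure_isSwap, Subgroup.closure_le]
    rintro π ⟨a, b, -, rfl⟩
    exact M.blockPerm_mem_of_pow hsi (by rw [pow_two, Equiv.swap_mul_self])
  exact h (Subgroup.mem_top π)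

theorem blockPerm_mem_odd (hp2 : p ≠ 2) (hsi : StronglyInvariant E (groupFusionSystem (M.S : Subgroup G)))
    {π : Perm (Blk p r)} (hπ : sign π = 1) : blockPerm π ∈ M.localPerms E := by
  classical
  have hp3 : 3 ≤ p := by
    have := hp.out.two_le
    omega
  have hcast : ∀ i : ℕ, 0 < i → i < p → (i : ZMod p) ≠ 0 := fun i h1 h2 h => by
    rw [ZMod.natCast_eq_zero_iff] at h
    exact absurd (Nat.le_of_dvd h1 h) (by omega)
  have h10 : (Sum.inl 1 : Blk p r) ≠ Sum.inl 0 := by
    simpa using hcast 1 one_pos (by omega)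
  have h21 : (Sum.inl 1 : Blk p r) ≠ Sum.inl (1 + 1) := by
    simp
  have h20 : (Sum.inl (1 + 1) : Blk p r) ≠ Sum.inl 0 := by
    have h := hcast 2 two_pos (by omega)
    push_cast at h
    simpa [one_add_one_eq_two] using h
  set c : Perm (Blk p r) := rho 1
  set s : Perm (Blk p r) := Equiv.swap (Sum.inl 0) (Sum.inl 1)
  have hcp : c ^ p = 1 := by rw [rho_pow, show p • (1 : ZMod p) = 0 by simp, rho_zero]
  have hτ : (c * s * c⁻¹ * s).IsThreeCycle := by
    rw [← Equiv.swap_apply_apply c]
    show (Equiv.swap (c (Sum.inl 0)) (c (Sum.inl 1)) * s).IsThreeCycle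
    simp only [c, s, rho_inl, zero_add]
    rw [Equiv.swap_comm (Sum.inl 0 : Blk p r)]
    exact isThreeCycle_swap_mul_swap_same h21 h10 h20
  have h : alternatingGroup (Blk p r) ≤ (M.localPerms E).comap blockHom := by
    rw [← closure_three_cycles_eq_alternating, Subgroup.closure_le]
    intro f hf
    obtain ⟨q, hq⟩ := isConj_iff.1 (isConj_of_cycleType_eq (hτ.cycleType.trans hf.cycleType.symm))
    have e : f = (q * c * q⁻¹) * (q * (s * c⁻¹ * s) * q⁻¹) := by rw [← hq]; group
    rw [e]
    refine mul_mem (M.blockPerm_mem_of_pow hsi ?_) (M.blockPerm_mem_of_pow hsi ?_)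
    · rw [conj_pow, hcp, mul_one, mul_inv_cancel]
    · rw [show s * c⁻¹ * s = s * c⁻¹ * s⁻¹ by rw [Equiv.swap_inv], conj_pow, conj_pow, inv_pow, hcp, inv_one,
        mul_one, mul_inv_cancel, mul_one, mul_inv_cancel]
  exact h (mem_alternatingGroup.2 hπ)

theorem scale_pair_mem (hp2 : p ≠ 2) (hsi : StronglyInvariant E (groupFusionSystem (M.S : Subgroup G)))
    {i j : Blk p r} (hij : i ≠ j) (c : (ZMod p)ˣ) :
    mon 1 (Pi.mulSingle i c * Pi.mulSingle j c⁻¹) ∈ M.localPerms E := by
  obtain ⟨l, hli, hlj⟩ := M.exists_third i j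
  set d : Blk p r → (ZMod p)ˣ := Pi.mulSingle i c
  obtain ⟨π₀, hπ₀i, hs⟩ : ∃ π₀ : Perm (Blk p r), (∀ b, π₀ b = i ↔ b = i) ∧
      sign (mon π₀ d : Perm (Pt p r e)) = 1 := by
    rcases Int.units_eq_one_or (sign (mon 1 d : Perm (Pt p r e))) with h | h
    · exact ⟨1, fun b => Iff.rfl, h⟩
    · refine ⟨Equiv.swap j l, fun b => ?_, ?_⟩
      · conv_lhs => rw [← Equiv.swap_apply_of_ne_of_ne hij hli.symm]
        exact (Equiv.swap j l).injective.eq_iff
      · rw [mon, map_mul, ← mon_one_left, h, sign_blockPerm, sign_swap hlj.symm,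
          (hp.out.odd_of_ne_two hp2).neg_one_pow]
        rfl
  set π' : Perm (Blk p r) := Equiv.swap i j * Equiv.swap j l
  have hπ' : sign π' = 1 := by
    rw [map_mul, sign_swap hij, sign_swap hlj.symm, Int.units_mul_self]
  set π := π₀⁻¹ * π' * π₀
  have hπ : sign π = 1 := by
    rw [map_mul, map_mul, map_inv, hπ', mul_one, inv_mul_cancel]
  have hmem := mul_mem (M.mon_conj_mem hsi hs (k := mon π 1) (by
    rw [mon_one_right]; exact M.blockPerm_mem_odd hp2 hsi hπ)) (inv_mem (show mon π' 1 ∈ M.localPerms E by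
    rw [mon_one_right]; exact M.blockPerm_mem_odd hp2 hsi hπ'))
  rw [mon_inv, mon_inv, mon_mul, mon_mul, mon_mul] at hmem
  convert hmem using 2
  · simp [π, mul_assoc]
  · funext b
    have e1 : ∀ x, d (π₀⁻¹ x) = d x := fun x => by
      simp only [d, Pi.mulSingle_apply]
      congr 1
      refine propext ⟨fun h => ?_, fun h => ?_⟩
      · rw [← (hπ₀i i).2 rfl, ← h]; simp
      · rw [Perm.inv_eq_iff_eq, h, (hπ₀i i).2 rfl]
    have e2 : ∀ x, d (π'⁻¹ x) = Pi.mulSingle (M := fun _ => (ZMod p)ˣ) j c x := fun x => by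
      simp only [d, Pi.mulSingle_apply]
      congr 1
      rw [eq_iff_iff, Perm.inv_eq_iff_eq]
      simp [π', Equiv.swap_apply_of_ne_of_ne hij hli.symm]
    have e3 : π (π₀⁻¹ (π'⁻¹ b)) = π₀⁻¹ b := by simp [π, Perm.mul_apply]
    simp only [Function.comp_apply, Pi.mul_apply, Pi.inv_apply, Pi.one_apply, inv_one, mul_one, one_mul,
      e3, e1, e2, Pi.mulSingle_inv]

theorem scale_mem (hp2 : p ≠ 2) (hsi : StronglyInvariant E (groupFusionSystem (M.S : Subgroup G)))
    {u : Blk p r → (ZMod p)ˣ} (hu : ∏ b, u b = 1) : mon 1 u ∈ M.localPerms E := by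
  classical
  set b₀ : Blk p r := Sum.inl 0
  have h : ∏ b, (Pi.mulSingle b (u b) * Pi.mulSingle b₀ (u b)⁻¹) = u := by
    rw [Finset.prod_mul_distrib, Finset.univ_prod_mulSingle]
    show u * ∏ x, MonoidHom.mulSingle (fun _ : Blk p r => (ZMod p)ˣ) b₀ (u x)⁻¹ = u
    rw [← map_prod, Finset.prod_inv_distrib, hu, inv_one, map_one, mul_one]
  show u ∈ (M.localPerms E).comap scaleHom
  rw [← h]
  refine Subgroup.prod_mem _ fun b _ => ?_
  rw [Subgroup.mem_comap]
  by_cases hb : b = b₀
  · subst hb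
    rw [← Pi.mulSingle_mul, mul_inv_cancel, Pi.mulSingle_one, map_one]
    exact one_mem _
  · exact M.scale_pair_mem hp2 hsi hb _

theorem diag_mem (hp2 : p ≠ 2) (hEs : E.IsSaturated p)
    (hle : E ≤ groupFusionSystem (M.S : Subgroup G))
    (hsi : StronglyInvariant E (groupFusionSystem (M.S : Subgroup G))) (c : (ZMod p)ˣ) :
    mon (Equiv.sumCongr (Units.mulLeft c⁻¹) (Equiv.refl _)) (Sum.elim (fun _ => c) fun _ => 1) ∈
      M.localPerms E := by
  have hnorm : ∀ {g : G} (A : Matrix.SpecialLinearGroup (Fin 2) (ZMod p)), M.hom g = lin A →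
      g ∈ Subgroup.normalizer (M.plane : Set G) := by
    intro g A hg
    refine mem_normalizer_of_forall fun x hx => ?_
    show M.hom (g * x * g⁻¹) ∈ planeGroup p r e
    rw [map_mul, map_mul, map_inv, hg]
    exact lin_conj_plane A hx
  have htop : ((localSubgroup E M.plane).map M.hom).comap lin = ⊤ := by
    refine eq_top_of_lower _ (fun t => ?_) fun x hx => ?_
    · obtain ⟨n, hn⟩ := M.exists_preimage (sign_lin (r := r) (e := e) hp2
        (Matrix.SpecialLinearGroup.transvection (show (1 : Fin 2) ≠ 0 by decide) t))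
      exact ⟨n, mem_localSubgroup_of_mem (M.plane_le_line.trans M.line_le)
        (M.mem_S.2 (by rw [hn, lin_lower]; exact M.shift_mem_P _)) (hnorm _ hn), hn⟩
    · obtain ⟨w, hw⟩ := M.exists_preimage (sign_lin (r := r) (e := e) hp2 turn)
      obtain ⟨y, hy, hyx⟩ := hx
      exact ⟨w * y * w⁻¹, conj_mem_localSubgroup M.S hsi (M.plane_le_line.trans M.line_le) (hnorm _ hw) hy,
        by rw [map_mul, map_mul, map_inv, hw, hyx, map_mul, map_mul, map_inv]⟩
  set D := Matrix.SpecialLinearGroup.diag2n (show (0 : Fin 2) ≠ 1 by decide) ((c⁻¹ : (ZMod p)ˣ) : ZMod p)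
    (Units.ne_zero _)
  have hD : D ∈ ((localSubgroup E M.plane).map M.hom).comap lin := htop ▸ Subgroup.mem_top D
  obtain ⟨g, hg, hge⟩ := hD
  rw [lin_diag] at hge
  refine ⟨g, mem_localSubgroup_of_centric M.S hEs hle (M.plane_centric hp2) M.plane_le_line M.line_le
    (fun x hx => shifts_le_lineGroup hx) hg ?_
    (M.mem_normalizer_base (w := 0) (by rw [hge, shift_zero, one_mul])), hge⟩
  refine mem_normalizer_of_forall fun x hx => ?_
  obtain ⟨v, c₀, hv⟩ := hx
  set πc : Perm (Blk p r) := Equiv.sumCongr (Units.mulLeft c⁻¹) (Equiv.refl _)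
  set uc : Blk p r → (ZMod p)ˣ := Sum.elim (fun _ => c) fun _ => 1
  refine ⟨fun j => (uc (πc⁻¹ j) : ZMod p) * v (πc⁻¹ j), ((c⁻¹ : (ZMod p)ˣ) : ZMod p) * c₀, ?_⟩
  rw [map_mul, map_mul, map_inv, hge, hv, mul_inv_eq_iff_eq_mul, ← mul_assoc, mon_mul_shift, mul_assoc, mul_assoc]
  congr 1
  refine ext_pt (fun b a => ?_) fun x => rfl
  rcases b with y | i
  · simp only [Perm.mul_apply, blockPerm_inl, rho_inl, mon_inl, πc, uc, Sum.elim_inl, Equiv.sumCongr_apply,
      Sum.map_inl, Units.mulLeft_apply, mul_add]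
  · simp only [Perm.mul_apply, blockPerm_inl, rho_inr, mon_inl, πc, uc, Sum.elim_inr, Equiv.sumCongr_apply,
      Sum.map_inr, Equiv.refl_apply]

theorem mem_localPerms_of_normalizer (hEs : E.IsSaturated p)
    (hle : E ≤ groupFusionSystem (M.S : Subgroup G))
    (hsi : StronglyInvariant E (groupFusionSystem (M.S : Subgroup G))) {g : G}
    (hg : g ∈ Subgroup.normalizer ((M.S : Subgroup G) : Set G)) : g ∈ localSubgroup E M.base := by
  classical
  suffices h : M.hom g ∈ M.localPerms E by
    obtain ⟨x, hx, hxg⟩ := h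
    rwa [M.inj hxg] at hx
  obtain ⟨w, π, u, h⟩ := M.eq_mon_of_mem_normalizer hg
  have hs := M.sign_hom g
  rw [h, map_mul] at hs
  rcases eq_or_ne p 2 with rfl | hp2
  · have hu : u = 1 := funext fun b => units_two (u b)
    subst hu
    rw [mon_one_right] at h hs
    have hb : sign (blockPerm π : Perm (Pt 2 r e)) = 1 := by
      rw [sign_blockPerm, pow_two, Int.units_mul_self]
    rw [hb, mul_one] at hs
    rw [h]
    exact mul_mem (M.shift_mem_localPerms hs) (M.blockPerm_mem_two hsi π)
  · rw [sign_shift_of_odd hp2, one_mul] at hs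
    rw [h]
    refine mul_mem (M.shift_mem_localPerms (sign_shift_of_odd hp2 w)) ?_
    set c := ∏ b, u b
    set πc : Perm (Blk p r) := Equiv.sumCongr (Units.mulLeft c⁻¹) (Equiv.refl _)
    set uc : Blk p r → (ZMod p)ˣ := Sum.elim (fun _ => c) fun _ => 1
    have hd : mon πc uc ∈ M.localPerms E := M.diag_mem hp2 hEs hle hsi c
    set π'' := πc⁻¹ * π
    set u'' := (uc⁻¹ ∘ (πc⁻¹ : Perm (Blk p r))) ∘ π * u
    have hsplit : (mon πc uc)⁻¹ * mon π u = (mon π'' u'' : Perm (Pt p r e)) := by
      rw [mon_inv, mon_mul]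
    have huc : ∏ b, uc b = c := by
      rw [Fintype.prod_sum_type]
      simp only [uc, Sum.elim_inl, Sum.elim_inr, Finset.prod_const_one, mul_one, Finset.prod_const,
        Finset.card_univ, ZMod.card]
      apply Units.ext
      rw [Units.val_pow_eq_pow_val, ZMod.pow_card]
    have hu'' : ∏ b, u'' b = 1 := by
      simp only [u'', Pi.mul_apply, Function.comp_apply, Finset.prod_mul_distrib, Pi.inv_apply,
        Finset.prod_inv_distrib]
      rw [Equiv.prod_comp π (fun b => uc ((πc⁻¹ : Perm (Blk p r)) b)), Equiv.prod_comp (πc⁻¹ : Perm (Blk p r)) uc,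
        huc, inv_mul_cancel]
    have hmon : (mon π'' u'' : Perm (Pt p r e)) = mon π'' 1 * mon 1 u'' := by
      rw [mon_mul]
      simp
    have hsum : ∀ x ∈ M.localPerms E, sign x = 1 := by
      rintro _ ⟨x, -, rfl⟩
      exact M.sign_hom x
    have hscale := M.scale_mem hp2 hsi hu''
    have hs'' : sign π'' = 1 := by
      have h1 : sign (mon π'' u'' : Perm (Pt p r e)) = 1 := by
        rw [← hsplit, map_mul, map_inv, hsum _ hd, hs, inv_one, one_mul]
      rw [hmon, map_mul, hsum _ hscale, mul_one, mon_one_right, sign_blockPerm] at h1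
      rcases Int.units_eq_one_or (sign π'') with h2 | h2
      · exact h2
      · rw [h2, (hp.out.odd_of_ne_two hp2).neg_one_pow] at h1
        exact absurd h1 (by decide)
    have e : mon π u = mon πc uc * (mon π'' 1 * mon 1 u'' : Perm (Pt p r e)) := by
      rw [← hmon, ← hsplit, mul_inv_cancel_left]
    rw [e]
    exact mul_mem hd (mul_mem (by rw [mon_one_right]; exact M.blockPerm_mem_odd hp2 hsi hs'') hscale)

/-- The fusion system of an alternating group in standard position is simple. -/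
theorem isSimple : (groupFusionSystem (M.S : Subgroup G)).IsSimple p := by
  set F := groupFusionSystem (M.S : Subgroup G)
  have hsat : F.IsSaturated p := H93.isSaturated_groupFusionSystem M.S
  refine ⟨hsat, fun hS => ?_, fun T E hE => ?_⟩
  · obtain ⟨b, hb, -⟩ := M.exists_third (Sum.inl 0) (Sum.inl 0)
    classical
    obtain ⟨g, hg⟩ := M.exists_preimage (sign_shift_pair (p := p) (r := r) (e := e) (Sum.inl 0) b)
    have : g = 1 := Subgroup.mem_bot.1 (hS.le (M.mem_S.2 (hg ▸ M.shift_mem_P _)))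
    rw [this, map_one, ← shift_zero] at hg
    have := congrFun (shift_injective hg) b
    simp [hb] at this
  obtain ⟨⟨hEs, -, hEI⟩, -⟩ := hE
  rcases M.stronglyClosed_eq hEI.2.1 with h | h
  · exact Or.inl h
  subst h
  refine Or.inr ⟨rfl, fun P => Set.Subset.antisymm (hEI.1 P) ?_⟩
  have hsi := stronglyInvariant_of_invariant hEI
  exact le_of_autGroup_top_le M.S.isPGroup' hsat
    (fun U hU a ha k hk => autGroup_conj_mem hsi le_rfl hU ha hk)
    (autInducedBy_top_le_of_local M.S hEs hEI.1 M.base_centric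
      fun g hg => M.mem_localPerms_of_normalizer hEs hEI.1 hsi hg) P

end Setting

/-- The fusion system of the alternating group of suitable degree is simple. -/
theorem alternating_isSimple (n : ℕ) (hn : 6 ≤ n) (hnp : p ^ 2 ≤ n) (hb : n % p ≤ 1)
    (S : Sylow p (alternatingGroup (Fin n))) :
    (groupFusionSystem (S : Subgroup (alternatingGroup (Fin n)))).IsSimple p := by
  classical
  obtain ⟨r, hr⟩ : ∃ r, n / p = p + r :=
    Nat.exists_eq_add_of_le ((Nat.le_div_iff_mul_le hp.out.pos).2 (by rwa [← pow_two]))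
  set e := n % p
  have hcard : Fintype.card (Fin n) = Fintype.card (Pt p r e) := by
    simp only [Fintype.card_sum, Fintype.card_prod, ZMod.card, Fintype.card_fin, ← hr]
    rw [mul_comm]
    exact (Nat.div_add_mod n p).symm
  set ψ := Fintype.equivOfCardEq hcard
  set f : alternatingGroup (Fin n) →* Perm (Pt p r e) :=
    (Equiv.permCongrHom ψ).toMonoidHom.comp (alternatingGroup (Fin n)).subtype
  have hf : Function.Injective f := (Equiv.permCongrHom ψ).injective.comp Subtype.val_injective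
  have hrange : f.range = alternatingGroup (Pt p r e) := by
    ext σ
    rw [mem_alternatingGroup]
    constructor
    · rintro ⟨x, rfl⟩
      show sign (ψ.permCongr (x : Perm (Fin n))) = 1
      rw [sign_permCongr]
      exact mem_alternatingGroup.1 x.2
    · intro h
      refine ⟨⟨ψ.symm.permCongr σ, mem_alternatingGroup.2 (by rw [sign_permCongr]; exact h)⟩, ?_⟩
      show ψ.permCongr (ψ.symm.permCongr σ) = σ
      ext x; simp [Equiv.permCongr_apply]
  obtain ⟨P, hP⟩ := (isPGroup_lineGroup (p := p) (r := r) (e := e)).exists_le_sylow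
  obtain ⟨R, hR⟩ := exists_sylow_inf_normal P (alternatingGroup (Pt p r e))
  have hidx : ¬ p ∣ ((P : Subgroup (Perm (Pt p r e))).comap f).index := by
    rw [Subgroup.index_comap, hrange, ← Subgroup.inf_relIndex_right]
    show ¬ p ∣ (((P : Subgroup (Perm (Pt p r e))) ⊓ alternatingGroup (Pt p r e)).subgroupOf
      (alternatingGroup (Pt p r e))).index
    rw [← hR]
    exact R.not_dvd_index
  set S₀ : Sylow p (alternatingGroup (Fin n)) := (P.isPGroup'.comap_of_injective f hf).toSylow hidx
  obtain ⟨g, hg⟩ := MulAction.exists_smul_eq (alternatingGroup (Fin n)) S S₀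
  have hr3 : 3 ≤ p + r := by
    by_contra h
    have h2 := hp.out.two_le
    obtain ⟨rfl, rfl⟩ : p = 2 ∧ r = 0 := ⟨by omega, by omega⟩
    omega
  refine Setting.isSimple (G := alternatingGroup (Fin n))
    ⟨f.comp (MulAut.conj g).toMonoidHom, hf.comp (MulAut.conj g).injective, ?_, S, P, hP, ?_, hb, hr3⟩
  · rw [MonoidHom.range_comp, MonoidHom.range_eq_top.2 (MulAut.conj g).surjective, ← MonoidHom.range_eq_map, hrange]
  · rw [← Subgroup.comap_comap]
    ext x
    show x ∈ (S : Subgroup (alternatingGroup (Fin n))) ↔ MulAut.conj g x ∈ (S₀ : Subgroup (alternatingGroup (Fin n)))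
    rw [← hg, Sylow.coe_subgroup_smul]
    exact (Subgroup.smul_mem_pointwise_smul_iff (a := MulAut.conj g)).symm

end Cfsg.Agent.H94.AltFusion
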