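import Mathlib

/-!
A permutation of `p`-power order is the product, inside one `p`-group, of a permutation of order dividing `p`
with the same sign and a permutation of smaller `p`-power order.
-/

set_option autoImplicit false

namespace Cfsg.Agent.H94.AltFusion

open Equiv Equiv.Perm

variable {α : Type*} [DecidableEq α] [Fintype α] {p : ℕ} [hp : Fact p.Prime]

/-- The splitting predicate. -/
def Splits (p k : ℕ) (σ : Perm α) : Prop :=
  ∃ (Q : Subgroup (Perm α)) (w h : Perm α), IsPGroup p Q ∧ w ∈ Q ∧ h ∈ Q ∧ σ = w * h ∧ w ^ p = 1 ∧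
    h ^ p ^ (k - 1) = 1 ∧ sign w = sign σ ∧ ∀ q ∈ Q, ∀ x, σ x = x → q x = x

theorem splits_one (k : ℕ) : Splits p k (1 : Perm α) :=
  ⟨⊥, 1, 1, IsPGroup.of_bot, one_mem _, one_mem _, (one_mul _).symm, one_pow _, one_pow _, rfl,
    fun q hq x _ => by rw [Subgroup.mem_bot.1 hq]; rfl⟩

theorem pow_apply_fixed {σ : Perm α} {x : α} (h : σ x = x) (n : ℕ) : (σ ^ n) x = x :=
  Equiv.Perm.pow_apply_eq_self_of_apply_eq_self h n

theorem splits_cycle {c : Perm α} (hc : c.IsCycle) {k : ℕ} (hk : c ^ p ^ k = 1) : Splits p k c := by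
  obtain ⟨j, hjk, hj⟩ := (Nat.dvd_prime_pow hp.out).1 (orderOf_dvd_of_pow_eq_one hk)
  obtain ⟨i, rfl⟩ : ∃ i, j = i + 1 := by
    refine Nat.exists_eq_succ_of_ne_zero fun h0 => ?_
    rw [h0, pow_zero, orderOf_eq_one_iff] at hj
    exact hc.ne_one hj
  set M := p ^ i
  set z := c ^ M with hzdef
  obtain ⟨a, ha⟩ : ∃ a, c a ≠ a := by
    obtain ⟨a, ha, -⟩ := hc
    exact ⟨a, ha⟩
  have hperiod : ∀ t : ℤ, (c ^ t) a = a → (orderOf c : ℤ) ∣ t := by
    intro t ht
    refine orderOf_dvd_iff_zpow_eq_one.2 ?_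
    by_contra hne
    obtain ⟨y, hy⟩ : ∃ y, (c ^ t) y ≠ y := by
      by_contra! hall
      exact hne (Equiv.ext hall)
    have hyc : c y ≠ y := fun e => hy (Equiv.Perm.zpow_apply_eq_self_of_apply_eq_self e t)
    obtain ⟨m, rfl⟩ := hc.exists_zpow_eq ha hyc
    apply hy
    rw [← Perm.mul_apply, ← zpow_add, add_comm, zpow_add, Perm.mul_apply, ht]
  have hzp : z ^ p = 1 := by
    rw [hzdef, ← pow_mul, ← pow_succ, ← hj, pow_orderOf_eq_one]
  have hza : z a ≠ a := by
    intro e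
    have h := hperiod (M : ℤ) (by rw [zpow_natCast]; exact e)
    rw [hj, Int.natCast_dvd_natCast] at h
    exact absurd (Nat.le_of_dvd (pow_pos hp.out.pos i) h)
      (not_le.2 (Nat.pow_lt_pow_right hp.out.one_lt (Nat.lt_succ_self i)))
  set w := z.cycleOf a
  have hwcyc : w.IsCycle := z.isCycle_cycleOf hza
  have hword : orderOf w = p := by
    refine orderOf_eq_prime (Equiv.ext fun x => ?_) hwcyc.ne_one
    by_cases hx : z.SameCycle a x
    · have hpow : ∀ n, (w ^ n) x = (z ^ n) x := by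
        intro n
        induction n with
        | zero => rfl
        | succ n ih =>
          rw [pow_succ', Perm.mul_apply, ih, pow_succ' z, Perm.mul_apply]
          exact SameCycle.cycleOf_apply (sameCycle_pow_right.2 hx)
      rw [hpow, hzp]
    · exact pow_apply_fixed (cycleOf_apply_of_not_sameCycle hx) p
  have hwp : w ^ p = 1 := hword ▸ pow_orderOf_eq_one w
  have hsign : sign w = sign c := by
    rw [hwcyc.sign, hc.sign, ← hwcyc.orderOf, ← hc.orderOf, hword, hj]
    congr 1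
    rcases hp.out.eq_two_or_odd' with rfl | hodd
    · rw [Even.neg_one_pow even_two, Even.neg_one_pow (Even.pow_of_ne_zero even_two (Nat.succ_ne_zero i))]
    · rw [hodd.neg_one_pow, hodd.pow.neg_one_pow]
  -- the `p`-group
  let C : Submonoid (Perm α) :=
    { carrier := {σ | Commute σ z ∧ ∃ m : ℕ, ∀ x, ∃ e : ℤ, σ x = (z ^ e) ((c ^ m) x)}
      one_mem' := ⟨Commute.one_left z, 0, fun x => ⟨0, by simp⟩⟩
      mul_mem' := by
        rintro s t ⟨hs, m, hms⟩ ⟨ht, n, hnt⟩
        refine ⟨hs.mul_left ht, m + n, fun x => ?_⟩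
        obtain ⟨e, he⟩ := hnt x
        obtain ⟨f, hf⟩ := hms ((c ^ n) x)
        refine ⟨e + f, ?_⟩
        rw [Perm.mul_apply, he, ← Perm.mul_apply, (hs.zpow_right e).eq, Perm.mul_apply, hf,
          zpow_add, Perm.mul_apply, pow_add, Perm.mul_apply] }
  let Q : Subgroup (Perm α) :=
    { C with
      inv_mem' := fun {s} hs => by
        have : s⁻¹ = s ^ (orderOf s - 1) := by
          refine inv_eq_of_mul_eq_one_right ?_
          rw [← pow_succ', Nat.sub_add_cancel (orderOf_pos s), pow_orderOf_eq_one]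
        show s⁻¹ ∈ C
        rw [this]; exact C.pow_mem hs _ }
  have hfix : ∀ q ∈ Q, ∀ x, c x = x → q x = x := by
    rintro q ⟨-, m, hm⟩ x hx
    obtain ⟨e, he⟩ := hm x
    rw [he, pow_apply_fixed hx]
    exact Equiv.Perm.zpow_apply_eq_self_of_apply_eq_self (pow_apply_fixed hx M) e
  have hQp : IsPGroup p Q := by
    rintro ⟨s, hs, m, hms⟩
    refine ⟨i + 1, Subtype.ext (Equiv.ext fun x => ?_)⟩
    show (s ^ p ^ (i + 1)) x = x
    have h1 : ∀ (n : ℕ) (y : α), ∃ e : ℤ, (s ^ n) y = (z ^ e) ((c ^ (m * n)) y) := by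
      intro n
      induction n with
      | zero => exact fun y => ⟨0, by simp⟩
      | succ n ih =>
        intro y
        obtain ⟨e, he⟩ := ih y
        obtain ⟨f, hf⟩ := hms ((c ^ (m * n)) y)
        refine ⟨e + f, ?_⟩
        rw [pow_succ', Perm.mul_apply, he, ← Perm.mul_apply, (hs.zpow_right e).eq, Perm.mul_apply, hf,
          zpow_add, Perm.mul_apply, Nat.mul_succ, add_comm (m * n) m, pow_add, Perm.mul_apply]
    obtain ⟨e, he⟩ := h1 M x
    rw [mul_comm m M, pow_mul c M m, ← hzdef, ← zpow_natCast z m, ← Perm.mul_apply, ← zpow_add] at he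
    have h2 : ∀ n : ℕ, ((s ^ M) ^ n) x = (z ^ ((e + m) * (n : ℤ))) x := by
      intro n
      induction n with
      | zero => simp
      | succ n ih =>
        rw [pow_succ', Perm.mul_apply, ih, ← Perm.mul_apply,
          ((hs.pow_left M).zpow_right _).eq, Perm.mul_apply, he, ← Perm.mul_apply, ← zpow_add]
        congr 2
        push_cast; ring
    rw [pow_succ, pow_mul, h2, mul_comm, zpow_mul, zpow_natCast, hzp, one_zpow]
    rfl
  have hwz : Commute w z := by
    refine Equiv.ext fun x => ?_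
    rw [Perm.mul_apply, Perm.mul_apply]
    by_cases hx : z.SameCycle a x
    · rw [hx.cycleOf_apply, (sameCycle_apply_right.2 hx).cycleOf_apply]
    · rw [cycleOf_apply_of_not_sameCycle hx,
        cycleOf_apply_of_not_sameCycle (fun h => hx (sameCycle_apply_right.1 h))]
  have hwQ : w ∈ Q := by
    refine ⟨hwz, 0, fun x => ?_⟩
    by_cases hx : z.SameCycle a x
    · exact ⟨1, by simp [w, hx.cycleOf_apply]⟩
    · exact ⟨0, by simp [w, cycleOf_apply_of_not_sameCycle hx]⟩
  have hcQ : c ∈ Q := ⟨(Commute.refl c).pow_right M, 1, fun x => ⟨0, by simp⟩⟩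
  refine ⟨Q, w, w⁻¹ * c, hQp, hwQ, mul_mem (inv_mem hwQ) hcQ, (mul_inv_cancel_left w c).symm,
    hwp, ?_, hsign, hfix⟩
  -- the smaller order
  suffices hM : (w⁻¹ * c) ^ M = 1 by
    rw [show p ^ (k - 1) = M * p ^ (k - 1 - i) by rw [← pow_add]; congr 1; omega, pow_mul, hM, one_pow]
  refine Equiv.ext fun x => ?_
  show ((w⁻¹ * c) ^ M) x = x
  by_cases hx : c x = x
  · exact hfix _ (Q.pow_mem (mul_mem (inv_mem hwQ) hcQ) M) x hx
  obtain ⟨s, rfl⟩ := hc.exists_pow_eq ha hx
  have hR : ∀ l : ℕ, z.SameCycle a ((c ^ (s + l)) a) ↔ M ∣ s + l := by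
    intro l
    constructor
    · rintro ⟨e, he⟩
      have h : (c ^ (((s + l : ℕ) : ℤ) - M * e)) a = a := by
        rw [sub_eq_neg_add, zpow_add, Perm.mul_apply, zpow_natCast, ← he, hzdef, ← zpow_natCast c M,
          ← zpow_mul, zpow_neg, ← Perm.mul_apply, inv_mul_cancel]
        rfl
      have h2 : (M : ℤ) ∣ ((s + l : ℕ) : ℤ) - M * e :=
        Int.dvd_trans (Int.natCast_dvd_natCast.2 (hj ▸ pow_dvd_pow p (Nat.le_succ i))) (hperiod _ h)
      have h3 := dvd_add h2 (dvd_mul_right (M : ℤ) e)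
      rw [sub_add_cancel] at h3
      exact Int.natCast_dvd_natCast.1 h3
    · rintro ⟨t, ht⟩
      exact ⟨t, by rw [ht, zpow_natCast, hzdef, ← pow_mul]⟩
  have hwinv : ∀ y, (w⁻¹ : Perm α) y = if z.SameCycle a y then (z⁻¹ : Perm α) y else y := by
    intro y
    rw [Perm.inv_eq_iff_eq]
    split
    · rename_i h
      have h' : z.SameCycle a ((z⁻¹ : Perm α) y) := sameCycle_symm_apply_right.2 h
      show y = z.cycleOf a ((z⁻¹ : Perm α) y)
      rw [SameCycle.cycleOf_apply h']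
      simp
    · rename_i h
      rw [cycleOf_apply_of_not_sameCycle h]
  have hcz : ∀ (e : ℤ), c * z ^ e = z ^ e * c := fun e => ((Commute.refl c).pow_right M).zpow_right e
  have hsame : ∀ (e : ℤ) (y : α), z.SameCycle a ((z ^ e) y) ↔ z.SameCycle a y := fun e y => sameCycle_zpow_right
  have hiter : ∀ n : ℕ, ((w⁻¹ * c) ^ n) ((c ^ s) a) =
      (z ^ (-(((Finset.Icc 1 n).filter fun l => M ∣ s + l).card : ℤ))) ((c ^ (s + n)) a) := by
    intro n
    induction n with
    | zero => simp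
    | succ n ih =>
      rw [pow_succ', Perm.mul_apply, ih, Perm.mul_apply, ← Perm.mul_apply c, hcz, Perm.mul_apply,
        ← Perm.mul_apply c, ← pow_succ', hwinv, add_assoc]
      rw [show Finset.Icc 1 (n + 1) = insert (n + 1) (Finset.Icc 1 n) by
          ext j; simp only [Finset.mem_Icc, Finset.mem_insert]; omega, Finset.filter_insert]
      simp only [hsame, hR]
      split
      · rw [Finset.card_insert_of_notMem (by simp), ← zpow_neg_one, ← Perm.mul_apply, ← zpow_add]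
        congr 2
        push_cast; ring
      · rfl
  rw [hiter]
  have hcard : ((Finset.Icc 1 M).filter fun l => M ∣ s + l).card = 1 := by
    have hM0 : 0 < M := pow_pos hp.out.pos i
    refine Finset.card_eq_one.2 ⟨M - s % M, ?_⟩
    ext l
    simp only [Finset.mem_filter, Finset.mem_Icc, Finset.mem_singleton]
    have h1 := Nat.div_add_mod s M
    have h2 := Nat.mod_lt s hM0
    constructor
    · rintro ⟨⟨hl1, hl2⟩, t, ht⟩
      rcases Nat.lt_or_ge t (s / M + 1) with h | h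
      · exfalso
        have := Nat.mul_le_mul_left M (Nat.lt_succ_iff.1 h)
        omega
      · rcases Nat.lt_or_ge (s / M + 1) t with h' | h'
        · exfalso
          have := Nat.mul_le_mul_left M h'
          rw [Nat.mul_succ, Nat.mul_succ] at this
          omega
        · obtain rfl : t = s / M + 1 := le_antisymm h' h
          rw [Nat.mul_succ] at ht
          omega
    · rintro rfl
      exact ⟨⟨by omega, by omega⟩, s / M + 1, by rw [Nat.mul_succ]; omega⟩
  rw [hcard, add_comm s M, pow_add, Perm.mul_apply]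
  show (z ^ (-(1 : ℤ))) (z ((c ^ s) a)) = (c ^ s) a
  rw [zpow_neg_one]
  simp

theorem splits_mul {σ τ : Perm α} {k : ℕ} (hd : Disjoint σ τ) (hσ : Splits p k σ) (hτ : Splits p k τ) :
    Splits p k (σ * τ) := by
  obtain ⟨Q₁, w₁, h₁, hQ₁, hw₁, hh₁, rfl, hp₁, hk₁, hs₁, hf₁⟩ := hσ
  obtain ⟨Q₂, w₂, h₂, hQ₂, hw₂, hh₂, rfl, hp₂, hk₂, hs₂, hf₂⟩ := hτ
  have hcomm : ∀ a ∈ Q₁, ∀ b ∈ Q₂, Commute a b := fun a ha b hb => by
    refine Disjoint.commute fun x => ?_
    rcases hd x with h | h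
    · exact Or.inl (hf₁ a ha x h)
    · exact Or.inr (hf₂ b hb x h)
  have hnorm : Q₁ ≤ Subgroup.normalizer (Q₂ : Set (Perm α)) := fun a ha =>
    Subgroup.centralizer_le_normalizer _ (Subgroup.mem_centralizer_iff.2 fun b hb => (hcomm a ha b hb).symm)
  refine ⟨Q₁ ⊔ Q₂, w₁ * w₂, h₁ * h₂, hQ₁.to_sup_of_normal_right' hQ₂ hnorm,
    Subgroup.mul_mem_sup hw₁ hw₂, Subgroup.mul_mem_sup hh₁ hh₂, ?_, ?_, ?_, ?_, ?_⟩
  · rw [mul_assoc, mul_assoc, ← mul_assoc h₁, (hcomm h₁ hh₁ w₂ hw₂).eq, mul_assoc]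
  · rw [(hcomm w₁ hw₁ w₂ hw₂).mul_pow, hp₁, hp₂, one_mul]
  · rw [(hcomm h₁ hh₁ h₂ hh₂).mul_pow, hk₁, hk₂, one_mul]
  · simp only [map_mul] at hs₁ hs₂ ⊢
    rw [← hs₁, ← hs₂]
  · intro q hq x hx
    obtain ⟨hx1, hx2⟩ := hd.mul_apply_eq_iff.1 hx
    have hle : Q₁ ⊔ Q₂ ≤ MulAction.stabilizer (Perm α) x :=
      sup_le (fun a ha => hf₁ a ha x hx1) (fun b hb => hf₂ b hb x hx2)
    exact hle hq

/-- Every permutation of `p`-power order splits. -/
theorem splits {σ : Perm α} {k : ℕ} (hk : σ ^ p ^ k = 1) : Splits p k σ := by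
  induction σ using Equiv.Perm.cycle_induction_on with
  | base_one => exact splits_one k
  | base_cycles σ hσ => exact splits_cycle hσ hk
  | induction_disjoint σ τ hd _ ihσ ihτ =>
    rw [hd.commute.mul_pow, (hd.pow_disjoint_pow (p ^ k) (p ^ k)).mul_eq_one_iff] at hk
    exact splits_mul hd (ihσ hk.1) (ihτ hk.2)

end Cfsg.Agent.H94.AltFusion
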