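import Mathlib

/-!
Permutations of `p + r` blocks of size `p` and at most one further point: translations inside the blocks,
monomial maps, and the linear maps of the plane formed by the first `p` blocks.
-/

set_option autoImplicit false

namespace Cfsg.Agent.H94.AltFusion

open Equiv Equiv.Perm

/-- The blocks: a line of `p` blocks and `r` further ones. -/
abbrev Blk (p r : ℕ) := ZMod p ⊕ Fin r

/-- The points. -/
abbrev Pt (p r e : ℕ) := (Blk p r × ZMod p) ⊕ Fin e

variable {p r e : ℕ}

/-- Translation by `v b` inside each block `b`. -/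
def shift (v : Blk p r → ZMod p) : Perm (Pt p r e) :=
  Equiv.sumCongr (Equiv.prodCongrRight fun b => Equiv.addRight (v b)) (Equiv.refl _)

/-- A permutation of the blocks. -/
def blockPerm (π : Perm (Blk p r)) : Perm (Pt p r e) :=
  Equiv.sumCongr (Equiv.prodCongrLeft fun _ => π) (Equiv.refl _)

/-- A multiplier in each block. -/
def scale (u : Blk p r → (ZMod p)ˣ) : Perm (Pt p r e) :=
  Equiv.sumCongr (Equiv.prodCongrRight fun b => (u b).mulLeft) (Equiv.refl _)

/-- A monomial map. -/
def mon (π : Perm (Blk p r)) (u : Blk p r → (ZMod p)ˣ) : Perm (Pt p r e) := blockPerm π * scale u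

@[simp] theorem shift_inl (v : Blk p r → ZMod p) (b : Blk p r) (a : ZMod p) :
    (shift v : Perm (Pt p r e)) (Sum.inl (b, a)) = Sum.inl (b, a + v b) := rfl

@[simp] theorem shift_inr (v : Blk p r → ZMod p) (x : Fin e) :
    (shift v : Perm (Pt p r e)) (Sum.inr x) = Sum.inr x := rfl

@[simp] theorem blockPerm_inl (π : Perm (Blk p r)) (b : Blk p r) (a : ZMod p) :
    (blockPerm π : Perm (Pt p r e)) (Sum.inl (b, a)) = Sum.inl (π b, a) := rfl

@[simp] theorem blockPerm_inr (π : Perm (Blk p r)) (x : Fin e) :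
    (blockPerm π : Perm (Pt p r e)) (Sum.inr x) = Sum.inr x := rfl

@[simp] theorem scale_inl (u : Blk p r → (ZMod p)ˣ) (b : Blk p r) (a : ZMod p) :
    (scale u : Perm (Pt p r e)) (Sum.inl (b, a)) = Sum.inl (b, (u b : ZMod p) * a) := rfl

@[simp] theorem scale_inr (u : Blk p r → (ZMod p)ˣ) (x : Fin e) :
    (scale u : Perm (Pt p r e)) (Sum.inr x) = Sum.inr x := rfl

@[simp] theorem mon_inl (π : Perm (Blk p r)) (u : Blk p r → (ZMod p)ˣ) (b : Blk p r) (a : ZMod p) :
    (mon π u : Perm (Pt p r e)) (Sum.inl (b, a)) = Sum.inl (π b, (u b : ZMod p) * a) := rfl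

@[simp] theorem mon_inr (π : Perm (Blk p r)) (u : Blk p r → (ZMod p)ˣ) (x : Fin e) :
    (mon π u : Perm (Pt p r e)) (Sum.inr x) = Sum.inr x := rfl

/-- Extensionality on the two kinds of points. -/
theorem ext_pt {σ τ : Perm (Pt p r e)} (h : ∀ b a, σ (Sum.inl (b, a)) = τ (Sum.inl (b, a)))
    (h' : ∀ x, σ (Sum.inr x) = τ (Sum.inr x)) : σ = τ := by
  refine Equiv.ext fun x => ?_
  rcases x with ⟨b, a⟩ | x
  · exact h b a
  · exact h' x

theorem shift_zero : (shift 0 : Perm (Pt p r e)) = 1 := ext_pt (fun b a => by simp) fun x => rfl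

theorem shift_add (v w : Blk p r → ZMod p) : (shift (v + w) : Perm (Pt p r e)) = shift v * shift w :=
  ext_pt (fun b a => by simp only [shift_inl, Perm.mul_apply, Pi.add_apply]; rw [add_assoc, add_comm (v b)])
    fun x => rfl

theorem shift_injective : Function.Injective (shift : (Blk p r → ZMod p) → Perm (Pt p r e)) := by
  intro v w h
  funext b
  have := congrArg (fun σ : Perm (Pt p r e) => σ (Sum.inl (b, 0))) h
  simpa using this

theorem shift_neg (v : Blk p r → ZMod p) : (shift (-v) : Perm (Pt p r e)) = (shift v)⁻¹ := by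
  rw [eq_inv_iff_mul_eq_one, ← shift_add, neg_add_cancel, shift_zero]

theorem shift_comm (v w : Blk p r → ZMod p) :
    Commute (shift v : Perm (Pt p r e)) (shift w) := by
  rw [Commute, SemiconjBy, ← shift_add, ← shift_add, add_comm]

theorem shift_pow (v : Blk p r → ZMod p) (n : ℕ) :
    (shift v : Perm (Pt p r e)) ^ n = shift (n • v) := by
  induction n with
  | zero => rw [pow_zero, zero_smul, shift_zero]
  | succ n ih => rw [pow_succ, ih, ← shift_add, succ_nsmul]

theorem shift_pow_prime (v : Blk p r → ZMod p) : (shift v : Perm (Pt p r e)) ^ p = 1 := by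
  rw [shift_pow, ← shift_zero]
  congr 1
  funext b
  simp

theorem blockPerm_mul (π π' : Perm (Blk p r)) :
    (blockPerm (π * π') : Perm (Pt p r e)) = blockPerm π * blockPerm π' := ext_pt (fun b a => rfl) fun x => rfl

theorem blockPerm_one : (blockPerm 1 : Perm (Pt p r e)) = 1 := ext_pt (fun b a => rfl) fun x => rfl

/-- Block permutations as a homomorphism. -/
def blockHom : Perm (Blk p r) →* Perm (Pt p r e) where
  toFun := blockPerm
  map_one' := blockPerm_one
  map_mul' := blockPerm_mul

theorem mon_mul (π π' : Perm (Blk p r)) (u u' : Blk p r → (ZMod p)ˣ) :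
    (mon π u * mon π' u' : Perm (Pt p r e)) = mon (π * π') ((u ∘ π') * u') :=
  ext_pt (fun b a => by simp [mul_assoc]) fun x => rfl

theorem mon_one : (mon 1 1 : Perm (Pt p r e)) = 1 := ext_pt (fun b a => by simp) fun x => rfl

theorem mon_one_right (π : Perm (Blk p r)) : (mon π 1 : Perm (Pt p r e)) = blockPerm π :=
  ext_pt (fun b a => by simp) fun x => rfl

theorem mon_one_left (u : Blk p r → (ZMod p)ˣ) : (mon 1 u : Perm (Pt p r e)) = scale u :=
  ext_pt (fun b a => rfl) fun x => rfl

theorem mon_inv (π : Perm (Blk p r)) (u : Blk p r → (ZMod p)ˣ) :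
    (mon π u : Perm (Pt p r e))⁻¹ = mon π⁻¹ (u⁻¹ ∘ (π⁻¹ : Perm (Blk p r))) := by
  refine inv_eq_of_mul_eq_one_right ?_
  rw [mon_mul, ← mon_one]
  congr 1
  · exact mul_inv_cancel π
  · funext b; simp

/-- Scaling as a homomorphism. -/
def scaleHom : (Blk p r → (ZMod p)ˣ) →* Perm (Pt p r e) where
  toFun := fun u => mon 1 u
  map_one' := mon_one
  map_mul' := fun u u' => by rw [mon_mul]; congr 1

theorem mon_mul_shift (π : Perm (Blk p r)) (u : Blk p r → (ZMod p)ˣ) (v : Blk p r → ZMod p) :
    (mon π u * shift v : Perm (Pt p r e)) =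
      shift (fun j => (u (π⁻¹ j) : ZMod p) * v (π⁻¹ j)) * mon π u :=
  ext_pt (fun b a => by simp [mul_add]) fun x => rfl

theorem mon_conj_shift (π : Perm (Blk p r)) (u : Blk p r → (ZMod p)ˣ) (v : Blk p r → ZMod p) :
    (mon π u * shift v * (mon π u)⁻¹ : Perm (Pt p r e)) =
      shift (fun j => (u (π⁻¹ j) : ZMod p) * v (π⁻¹ j)) := by
  rw [mon_mul_shift, mul_inv_cancel_right]

theorem blockPerm_mul_shift (π : Perm (Blk p r)) (v : Blk p r → ZMod p) :
    (blockPerm π * shift v : Perm (Pt p r e)) = shift (fun j => v (π⁻¹ j)) * blockPerm π :=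
  ext_pt (fun b a => by simp) fun x => rfl

/-- The translation of the line of blocks by `c`. -/
def rho (c : ZMod p) : Perm (Blk p r) := Equiv.sumCongr (Equiv.addRight c) (Equiv.refl _)

@[simp] theorem rho_inl (c y : ZMod p) : (rho c : Perm (Blk p r)) (Sum.inl y) = Sum.inl (y + c) := rfl

@[simp] theorem rho_inr (c : ZMod p) (j : Fin r) : (rho c : Perm (Blk p r)) (Sum.inr j) = Sum.inr j := rfl

theorem rho_add (c d : ZMod p) : (rho (c + d) : Perm (Blk p r)) = rho c * rho d := by
  ext (y | j)
  · simp [add_assoc, add_comm c]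
  · simp

theorem rho_zero : (rho 0 : Perm (Blk p r)) = 1 := by
  ext (y | j)
  · simp
  · simp

theorem rho_pow (c : ZMod p) (n : ℕ) : (rho c : Perm (Blk p r)) ^ n = rho (n • c) := by
  induction n with
  | zero => rw [pow_zero, zero_smul, rho_zero]
  | succ n ih => rw [pow_succ, ih, ← rho_add, succ_nsmul]

theorem rho_inv (c : ZMod p) : (rho c : Perm (Blk p r))⁻¹ = rho (-c) :=
  inv_eq_of_mul_eq_one_right (by rw [← rho_add, add_neg_cancel, rho_zero])

/-- The group of translations inside the blocks. -/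
def shifts (p r e : ℕ) : Subgroup (Perm (Pt p r e)) where
  carrier := Set.range shift
  one_mem' := ⟨0, shift_zero⟩
  mul_mem' := by rintro _ _ ⟨v, rfl⟩ ⟨w, rfl⟩; exact ⟨v + w, shift_add v w⟩
  inv_mem' := by rintro _ ⟨v, rfl⟩; exact ⟨-v, shift_neg v⟩

/-- Translations inside the blocks together with translations of the line of blocks. -/
def lineGroup (p r e : ℕ) : Subgroup (Perm (Pt p r e)) where
  carrier := {σ | ∃ (v : Blk p r → ZMod p) (c : ZMod p), σ = shift v * blockPerm (rho c)}
  one_mem' := ⟨0, 0, by rw [shift_zero, rho_zero, blockPerm_one, one_mul]⟩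
  mul_mem' := by
    rintro _ _ ⟨v, c, rfl⟩ ⟨w, d, rfl⟩
    refine ⟨v + (fun j => w ((rho c)⁻¹ j)), c + d, ?_⟩
    rw [shift_add, rho_add, blockPerm_mul, mul_assoc, ← mul_assoc (blockPerm (rho c)), blockPerm_mul_shift]
    simp only [mul_assoc]
  inv_mem' := by
    rintro _ ⟨v, c, rfl⟩
    refine ⟨fun j => (-v) (rho c j), -c, ?_⟩
    rw [← rho_inv, mul_inv_rev, ← shift_neg]
    show (blockHom (rho c))⁻¹ * shift (-v) = shift _ * blockHom (rho c)⁻¹
    rw [← map_inv]
    show blockPerm (rho c)⁻¹ * shift (-v) = _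
    rw [blockPerm_mul_shift]
    simp [blockHom]

/-- Translations of the plane together with translations inside the remaining blocks. -/
def planeGroup (p r e : ℕ) : Subgroup (Perm (Pt p r e)) where
  carrier := {σ | ∃ (v : Blk p r → ZMod p) (c : ZMod p),
    (∀ y, v (Sum.inl y) = v (Sum.inl 0)) ∧ σ = shift v * blockPerm (rho c)}
  one_mem' := ⟨0, 0, fun _ => rfl, by rw [shift_zero, rho_zero, blockPerm_one, one_mul]⟩
  mul_mem' := by
    rintro _ _ ⟨v, c, hv, rfl⟩ ⟨w, d, hw, rfl⟩
    refine ⟨v + (fun j => w ((rho c)⁻¹ j)), c + d, fun y => ?_, ?_⟩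
    · simp only [Pi.add_apply, rho_inv, rho_inl]
      rw [hv y, hw (y + -c), hw (0 + -c)]
    · rw [shift_add, rho_add, blockPerm_mul, mul_assoc, ← mul_assoc (blockPerm (rho c)), blockPerm_mul_shift]
      simp only [mul_assoc]
  inv_mem' := by
    rintro _ ⟨v, c, hv, rfl⟩
    refine ⟨fun j => (-v) (rho c j), -c, fun y => ?_, ?_⟩
    · simp only [rho_inl, Pi.neg_apply]
      rw [hv (y + c), hv (0 + c)]
    · rw [← rho_inv, mul_inv_rev, ← shift_neg]
      show (blockHom (rho c))⁻¹ * shift (-v) = shift _ * blockHom (rho c)⁻¹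
      rw [← map_inv]
      show blockPerm (rho c)⁻¹ * shift (-v) = _
      rw [blockPerm_mul_shift]
      simp [blockHom]

theorem planeGroup_le_lineGroup : planeGroup p r e ≤ lineGroup p r e := by
  rintro σ ⟨v, c, -, rfl⟩
  exact ⟨v, c, rfl⟩

theorem shifts_le_lineGroup : shifts p r e ≤ lineGroup p r e := by
  rintro _ ⟨v, rfl⟩
  exact ⟨v, 0, by rw [rho_zero, blockPerm_one, mul_one]⟩

variable [hp : Fact p.Prime]

theorem isPGroup_lineGroup : IsPGroup p (lineGroup p r e) := by
  rintro ⟨σ, v, c, rfl⟩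
  refine ⟨2, Subtype.ext ?_⟩
  show (shift v * blockPerm (rho c) : Perm (Pt p r e)) ^ p ^ 2 = 1
  have h : ∀ n : ℕ, ∃ w, (shift v * blockPerm (rho c) : Perm (Pt p r e)) ^ n =
      shift w * blockPerm (rho (n • c)) := by
    intro n
    induction n with
    | zero => exact ⟨0, by rw [pow_zero, shift_zero, zero_smul, rho_zero, blockPerm_one, one_mul]⟩
    | succ n ih =>
      obtain ⟨w, hw⟩ := ih
      refine ⟨w + (fun j => v ((rho (n • c))⁻¹ j)), ?_⟩
      rw [pow_succ, hw, shift_add, succ_nsmul, rho_add, blockPerm_mul, mul_assoc,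
        ← mul_assoc (blockPerm (rho (n • c))), blockPerm_mul_shift]
      simp only [mul_assoc]
  obtain ⟨w, hw⟩ := h p
  rw [pow_two, pow_mul, hw, show p • c = 0 by simp, rho_zero, blockPerm_one, mul_one, shift_pow_prime]

omit hp in
theorem sign_eq_one_of_pow {α : Type*} [DecidableEq α] [Fintype α] {σ : Perm α} {k : ℕ} (hk : Odd k)
    (h : σ ^ k = 1) : sign σ = 1 := by
  have h1 := congrArg sign h
  rw [map_pow, map_one] at h1
  rcases Int.units_eq_one_or (sign σ) with h2 | h2
  · exact h2
  · rw [h2, hk.neg_one_pow] at h1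
    exact absurd h1 (by decide)

theorem sign_blockPerm (π : Perm (Blk p r)) : sign (blockPerm π : Perm (Pt p r e)) = sign π ^ p := by
  rw [blockPerm, sign_sumCongr, sign_prodCongrLeft, ← Equiv.Perm.one_def, map_one, mul_one]
  simp

theorem sign_scale_mulSingle [DecidableEq (Blk p r)] (i : Blk p r) (c : (ZMod p)ˣ) :
    sign (mon 1 (Pi.mulSingle i c) : Perm (Pt p r e)) = sign (Units.mulLeft c) := by
  rw [mon_one_left, scale, sign_sumCongr, sign_prodCongrRight, ← Equiv.Perm.one_def, map_one, mul_one,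
    Finset.prod_eq_single i]
  · rw [Pi.mulSingle_eq_same]
  · intro b _ hb
    rw [Pi.mulSingle_eq_of_ne hb]
    rw [show (1 : (ZMod p)ˣ).mulLeft = 1 from Equiv.ext fun a => by simp, map_one]
  · simp

/-- A permutation that commutes with translations separating each block is a translation. -/
theorem eq_shift_of_commute (he : e ≤ 1) {σ : Perm (Pt p r e)}
    (h : ∀ b, ∃ v w : Blk p r → ZMod p, v b = 1 ∧ w b = 1 ∧ (∀ c, c ≠ b → v c = 0 ∨ w c = 0) ∧
      σ * shift v = shift v * σ ∧ σ * shift w = shift w * σ) :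
    ∃ u, σ = shift u := by
  have hmoved : ∀ b a (v : Blk p r → ZMod p), v b = 1 → σ * shift v = shift v * σ →
      ∃ b' a', σ (Sum.inl (b, a)) = Sum.inl (b', a') ∧ v b' ≠ 0 ∧
        σ (Sum.inl (b, a + 1)) = Sum.inl (b', a' + v b') := by
    intro b a v hv hc
    have h1 : σ (Sum.inl (b, a + 1)) = shift v (σ (Sum.inl (b, a))) := by
      have := congrArg (fun τ : Perm (Pt p r e) => τ (Sum.inl (b, a))) hc
      simpa [hv] using this
    have hne : σ (Sum.inl (b, a + 1)) ≠ σ (Sum.inl (b, a)) := fun e' => by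
      simpa using σ.injective e'
    rcases hσ : σ (Sum.inl (b, a)) with ⟨b', a'⟩ | x
    · rw [hσ, shift_inl] at h1
      refine ⟨b', a', rfl, fun h0 => hne ?_, h1⟩
      rw [h1, hσ, h0, add_zero]
    · rw [hσ, shift_inr] at h1
      exact absurd (h1.trans hσ.symm) hne
  have hblock : ∀ b a, ∃ a', σ (Sum.inl (b, a)) = Sum.inl (b, a') ∧
      σ (Sum.inl (b, a + 1)) = Sum.inl (b, a' + 1) := by
    intro b a
    obtain ⟨v, w, hv, hw, hvw, hcv, hcw⟩ := h b
    obtain ⟨b₁, a₁, h1, hv1, h2⟩ := hmoved b a v hv hcv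
    obtain ⟨b₂, a₂, h1', hw1, -⟩ := hmoved b a w hw hcw
    obtain ⟨rfl, rfl⟩ : b₁ = b₂ ∧ a₁ = a₂ := by simpa using h1.symm.trans h1'
    obtain rfl : b₁ = b := by
      by_contra hb
      rcases hvw b₁ hb with h0 | h0
      · exact hv1 h0
      · exact hw1 h0
    exact ⟨a₁, h1, hv ▸ h2⟩
  choose f hf hf' using hblock
  have hlin : ∀ (b : Blk p r) (k : ℕ), σ (Sum.inl (b, (k : ZMod p))) = Sum.inl (b, (k : ZMod p) + f b 0) := by
    intro b k
    induction k with
    | zero => simpa using hf b 0
    | succ k ih =>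
      obtain he' : f b k = (k : ZMod p) + f b 0 := by simpa using (hf b k).symm.trans ih
      rw [Nat.cast_succ, hf' b k, he', add_right_comm]
  refine ⟨fun b => f b 0, ext_pt (fun b a => ?_) fun x => ?_⟩
  · obtain ⟨k, rfl⟩ := ZMod.natCast_zmod_surjective (n := p) a
    rw [hlin, shift_inl]
  · rcases hσ : σ (Sum.inr x) with ⟨b, a⟩ | y
    · exfalso
      obtain ⟨k, hk⟩ := ZMod.natCast_zmod_surjective (n := p) (a - f b 0)
      have := hlin b k
      rw [hk, sub_add_cancel, ← hσ] at this
      simpa using σ.injective this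
    · obtain rfl : y = x := Fin.ext (by have := x.2; have := y.2; omega)
      rw [shift_inr]

/-- A permutation normalizing the group generated by the single block translations is monomial. -/
theorem eq_mon_of_normalizes [DecidableEq (Blk p r)] (he : e ≤ 1) {σ : Perm (Pt p r e)}
    (h : ∀ b, ∃ b' x, σ * shift (Pi.single b 1) = shift (Pi.single b' x) * σ) :
    ∃ w π u, σ = shift w * mon π u := by
  choose f x hfx using h
  have hx : ∀ b, x b ≠ 0 := by
    intro b h0
    have := hfx b
    rw [h0, Pi.single_zero, shift_zero, one_mul, mul_eq_left, ← shift_zero] at this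
    have := congrFun (shift_injective this) b
    simp at this
  have hblock : ∀ b a, ∃ a', σ (Sum.inl (b, a)) = Sum.inl (f b, a') ∧
      σ (Sum.inl (b, a + 1)) = Sum.inl (f b, a' + x b) := by
    intro b a
    have h1 : σ (Sum.inl (b, a + 1)) = shift (Pi.single (f b) (x b)) (σ (Sum.inl (b, a))) := by
      have := congrArg (fun τ : Perm (Pt p r e) => τ (Sum.inl (b, a))) (hfx b)
      simpa using this
    have hne : σ (Sum.inl (b, a + 1)) ≠ σ (Sum.inl (b, a)) := fun e' => by
      simpa using σ.injective e'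
    rcases hσ : σ (Sum.inl (b, a)) with ⟨b', a'⟩ | y
    · rw [hσ, shift_inl] at h1
      obtain rfl : b' = f b := by
        by_contra hb
        rw [Pi.single_eq_of_ne hb, add_zero] at h1
        exact hne (h1.trans hσ.symm)
      rw [Pi.single_eq_same] at h1
      exact ⟨a', rfl, h1⟩
    · rw [hσ, shift_inr] at h1
      exact absurd (h1.trans hσ.symm) hne
  choose g hg hg' using hblock
  have hlin : ∀ (b : Blk p r) (k : ℕ),
      σ (Sum.inl (b, (k : ZMod p))) = Sum.inl (f b, g b 0 + x b * k) := by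
    intro b k
    induction k with
    | zero => simpa using hg b 0
    | succ k ih =>
      obtain he' : g b k = g b 0 + x b * k := by simpa using (hg b k).symm.trans ih
      rw [Nat.cast_succ, hg' b k, he']
      simp [mul_add, add_assoc]
  have hlin' : ∀ b a, σ (Sum.inl (b, a)) = Sum.inl (f b, g b 0 + x b * a) := fun b a => by
    obtain ⟨k, rfl⟩ := ZMod.natCast_zmod_surjective (n := p) a
    exact hlin b k
  have hf : Function.Injective f := by
    intro b c hbc
    have e1 := hlin' b 0
    have e2 := hlin' c ((x c)⁻¹ * (g b 0 - g c 0))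
    rw [mul_zero, add_zero] at e1
    rw [← mul_assoc, mul_inv_cancel₀ (hx c), one_mul, add_sub_cancel, ← hbc, ← e1] at e2
    simpa using congrArg (Sum.elim (fun z => z.1) fun _ => b) (σ.injective e2).symm
  let π : Perm (Blk p r) := Equiv.ofBijective f (Finite.injective_iff_bijective.1 hf)
  refine ⟨fun b => g (π.symm b) 0, π, fun b => Units.mk0 (x b) (hx b), ext_pt (fun b a => ?_) fun y => ?_⟩
  · rw [Perm.mul_apply, mon_inl, shift_inl, hlin', show π b = f b from rfl]
    simp only [Units.val_mk0]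
    rw [show π.symm (f b) = b from π.symm_apply_apply b, add_comm]
  · rcases hσ : σ (Sum.inr y) with ⟨b, a⟩ | z
    · exfalso
      have := hlin' (π.symm b) ((x (π.symm b))⁻¹ * (a - g (π.symm b) 0))
      rw [← mul_assoc, mul_inv_cancel₀ (hx _), one_mul, add_sub_cancel,
        show f (π.symm b) = b from π.apply_symm_apply b, ← hσ] at this
      simpa using σ.injective this
    · obtain rfl : z = y := Fin.ext (by have := y.2; have := z.2; omega)
      simp

/-! The linear maps of the plane. -/

/-- The function of a linear map of the plane. -/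
def linFun (M : Matrix (Fin 2) (Fin 2) (ZMod p)) : Pt p r e → Pt p r e
  | Sum.inl (Sum.inl y, a) => Sum.inl (Sum.inl (M 0 0 * y + M 0 1 * a), M 1 0 * y + M 1 1 * a)
  | Sum.inl (Sum.inr j, a) => Sum.inl (Sum.inr j, a)
  | Sum.inr x => Sum.inr x

theorem linFun_comp (M N : Matrix (Fin 2) (Fin 2) (ZMod p)) (x : Pt p r e) :
    linFun M (linFun N x) = linFun (M * N) x := by
  rcases x with ⟨y | j, a⟩ | x <;> simp [linFun, Matrix.mul_apply, Fin.sum_univ_two]
  constructor <;> ring

theorem linFun_one (x : Pt p r e) : linFun (1 : Matrix (Fin 2) (Fin 2) (ZMod p)) x = x := by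
  rcases x with ⟨y | j, a⟩ | x <;> simp [linFun]

/-- The linear maps of the plane. -/
def lin : Matrix.SpecialLinearGroup (Fin 2) (ZMod p) →* Perm (Pt p r e) where
  toFun M :=
    { toFun := linFun (M : Matrix (Fin 2) (Fin 2) (ZMod p))
      invFun := linFun ((M⁻¹ : Matrix.SpecialLinearGroup (Fin 2) (ZMod p)) : Matrix (Fin 2) (Fin 2) (ZMod p))
      left_inv := fun x => by
        rw [linFun_comp, ← Matrix.SpecialLinearGroup.coe_mul, inv_mul_cancel,
          Matrix.SpecialLinearGroup.coe_one, linFun_one]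
      right_inv := fun x => by
        rw [linFun_comp, ← Matrix.SpecialLinearGroup.coe_mul, mul_inv_cancel,
          Matrix.SpecialLinearGroup.coe_one, linFun_one] }
  map_one' := Equiv.ext fun x => by
    show linFun _ x = x
    rw [Matrix.SpecialLinearGroup.coe_one, linFun_one]
  map_mul' := fun M N => Equiv.ext fun x => by
    show linFun _ x = linFun _ (linFun _ x)
    rw [linFun_comp, Matrix.SpecialLinearGroup.coe_mul]

theorem lin_inl_inl (M : Matrix.SpecialLinearGroup (Fin 2) (ZMod p)) (y a : ZMod p) :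
    (lin M : Perm (Pt p r e)) (Sum.inl (Sum.inl y, a)) =
      Sum.inl (Sum.inl (M.1 0 0 * y + M.1 0 1 * a), M.1 1 0 * y + M.1 1 1 * a) := rfl

theorem lin_inl_inr (M : Matrix.SpecialLinearGroup (Fin 2) (ZMod p)) (j : Fin r) (a : ZMod p) :
    (lin M : Perm (Pt p r e)) (Sum.inl (Sum.inr j, a)) = Sum.inl (Sum.inr j, a) := rfl

theorem lin_inr (M : Matrix.SpecialLinearGroup (Fin 2) (ZMod p)) (x : Fin e) :
    (lin M : Perm (Pt p r e)) (Sum.inr x) = Sum.inr x := rfl

end Cfsg.Agent.H94.AltFusion
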