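import Cfsg.Agent.H94.AltFusion.Model
import Cfsg.Agent.H94.AltFusion.CycleSplit
import Cfsg.Agent.H94.ConstrainedSetup
import Cfsg.Agent.H24.PGroupBasic

/-! In an alternating group a Sylow subgroup has no proper strongly closed subgroup. -/

set_option autoImplicit false

namespace Cfsg.Agent.H94.AltFusion

open Equiv Equiv.Perm Cfsg Cfsg.FusionSystem

/-- An embedded alternating group with a Sylow subgroup in standard position. -/
structure Setting (p r e : ℕ) [Fact p.Prime] (G : Type*) [Group G] where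
  hom : G →* Perm (Pt p r e)
  inj : Function.Injective hom
  range_eq : hom.range = alternatingGroup (Pt p r e)
  S : Sylow p G
  P : Sylow p (Perm (Pt p r e))
  hP : lineGroup p r e ≤ P
  hS : (S : Subgroup G) = (P : Subgroup (Perm (Pt p r e))).comap hom
  he : e ≤ 1
  hr : 3 ≤ p + r

variable {p r e : ℕ} [hp : Fact p.Prime] {G : Type*} [Group G] (M : Setting p r e G)

namespace Setting

theorem sign_hom (g : G) : sign (M.hom g) = 1 :=
  mem_alternatingGroup.1 (M.range_eq ▸ ⟨g, rfl⟩ : M.hom g ∈ alternatingGroup (Pt p r e))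

theorem exists_preimage {σ : Perm (Pt p r e)} (h : sign σ = 1) : ∃ g, M.hom g = σ := by
  have : σ ∈ M.hom.range := by rw [M.range_eq]; exact mem_alternatingGroup.2 h
  exact this

theorem mem_S {g : G} : g ∈ (M.S : Subgroup G) ↔ M.hom g ∈ (M.P : Subgroup (Perm (Pt p r e))) := by
  rw [M.hS]; rfl

theorem shift_mem_P (v : Blk p r → ZMod p) : shift v ∈ (M.P : Subgroup (Perm (Pt p r e))) :=
  M.hP (shifts_le_lineGroup ⟨v, rfl⟩)

theorem exists_third (M : Setting p r e G) (b c : Blk p r) : ∃ d, d ≠ b ∧ d ≠ c := by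
  classical
  have hcard : 2 < (Finset.univ : Finset (Blk p r)).card := by
    rw [Finset.card_univ, Fintype.card_sum, ZMod.card, Fintype.card_fin]
    have := M.hr
    omega
  obtain ⟨d, -, hd⟩ := Finset.exists_mem_notMem_of_card_lt_card
    (s := ({b, c} : Finset (Blk p r))) (t := Finset.univ)
    (lt_of_le_of_lt Finset.card_le_two hcard)
  simp only [Finset.mem_insert, Finset.mem_singleton, not_or] at hd
  exact ⟨d, hd.1, hd.2⟩

end Setting

theorem sign_shift_single (b : Blk p r) :
    sign (shift (Pi.single b 1) : Perm (Pt p r e)) = sign (Equiv.addRight (1 : ZMod p)) := by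
  rw [shift, sign_sumCongr, sign_prodCongrRight, ← Equiv.Perm.one_def, map_one, mul_one, Finset.prod_eq_single b]
  · rw [Pi.single_eq_same]
  · intro c _ hc
    rw [Pi.single_eq_of_ne hc, show Equiv.addRight (0 : ZMod p) = 1 from Equiv.ext fun a => add_zero a, map_one]
  · simp

theorem sign_shift_pair (b c : Blk p r) :
    sign (shift (Pi.single b 1 + Pi.single c 1) : Perm (Pt p r e)) = 1 := by
  rw [shift_add, map_mul, sign_shift_single, sign_shift_single, Int.units_mul_self]

theorem sign_shift_of_odd (hp2 : p ≠ 2) (v : Blk p r → ZMod p) : sign (shift v : Perm (Pt p r e)) = 1 :=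
  sign_eq_one_of_pow (hp.out.odd_of_ne_two hp2) (shift_pow_prime v)

namespace Setting

/-- An element commuting with the even translations is a translation. -/
theorem eq_shift_of_commute_even {g : G}
    (h : ∀ k, M.hom k ∈ shifts p r e → k * g = g * k) : ∃ u, M.hom g = shift u := by
  refine eq_shift_of_commute M.he fun b => ?_
  obtain ⟨c, hc, -⟩ := M.exists_third b b
  obtain ⟨d, hd, hdc⟩ := M.exists_third b c
  have key : ∀ x : Blk p r, M.hom g * shift (Pi.single b 1 + Pi.single x 1) =
      shift (Pi.single b 1 + Pi.single x 1) * M.hom g := by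
    intro x
    obtain ⟨k, hk⟩ := M.exists_preimage (sign_shift_pair (p := p) (r := r) (e := e) b x)
    rw [← hk, ← map_mul, ← map_mul, h k ⟨_, hk.symm⟩]
  refine ⟨_, _, ?_, ?_, fun x hx => ?_, key c, key d⟩
  · simp [hc.symm]
  · simp [hd.symm]
  · by_cases hxc : x = c
    · subst hxc
      exact Or.inr (by simp [hx, hdc.symm])
    · exact Or.inl (by simp [hx, hxc])

/-- The translations met by a subgroup. -/
def InT (T : Subgroup G) (v : Blk p r → ZMod p) : Prop := ∃ t ∈ T, M.hom t = shift v

theorem inT_add {T : Subgroup G} {v w : Blk p r → ZMod p} (hv : M.InT T v) (hw : M.InT T w) :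
    M.InT T (v + w) := by
  obtain ⟨t, ht, hte⟩ := hv
  obtain ⟨s, hs, hse⟩ := hw
  exact ⟨t * s, T.mul_mem ht hs, by rw [map_mul, hte, hse, shift_add]⟩

theorem inT_zero (T : Subgroup G) : M.InT T 0 := ⟨1, T.one_mem, by rw [map_one, shift_zero]⟩

theorem inT_neg {T : Subgroup G} {v : Blk p r → ZMod p} (hv : M.InT T v) : M.InT T (-v) := by
  obtain ⟨t, ht, hte⟩ := hv
  exact ⟨t⁻¹, T.inv_mem ht, by rw [map_inv, hte, shift_neg]⟩

theorem inT_sub {T : Subgroup G} {v w : Blk p r → ZMod p} (hv : M.InT T v) (hw : M.InT T w) :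
    M.InT T (v - w) := by
  rw [sub_eq_add_neg]; exact M.inT_add hv (M.inT_neg hw)

theorem inT_smul {T : Subgroup G} {v : Blk p r → ZMod p} (hv : M.InT T v) (x : ZMod p) :
    M.InT T (fun b => x * v b) := by
  obtain ⟨k, rfl⟩ := ZMod.natCast_zmod_surjective (n := p) x
  induction k with
  | zero => convert M.inT_zero T using 1; funext b; simp
  | succ k ih =>
    convert M.inT_add ih hv using 1
    funext b; simp [add_mul]

variable [Finite G] {T : Subgroup G}

theorem inT_mon (hT : (groupFusionSystem (M.S : Subgroup G)).StronglyClosed T) {v : Blk p r → ZMod p}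
    (hv : M.InT T v) (π : Perm (Blk p r)) (u : Blk p r → (ZMod p)ˣ)
    (hsign : sign (mon π u : Perm (Pt p r e)) = 1) :
    M.InT T (fun j => (u (π⁻¹ j) : ZMod p) * v (π⁻¹ j)) := by
  obtain ⟨t, ht, hte⟩ := hv
  obtain ⟨g, hg⟩ := M.exists_preimage hsign
  have he : M.hom (g * t * g⁻¹) = shift (fun j => (u (π⁻¹ j) : ZMod p) * v (π⁻¹ j)) := by
    rw [map_mul, map_mul, map_inv, hg, hte, mon_conj_shift]
  exact ⟨_, conj_mem_of_stronglyClosed_group hT ht (M.mem_S.2 (he ▸ M.shift_mem_P _)), he⟩

theorem sign_swap_mul_swap_block {i j k : Blk p r} (hij : i ≠ j) (hjk : j ≠ k) :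
    sign (mon (Equiv.swap i j * Equiv.swap j k) 1 : Perm (Pt p r e)) = 1 := by
  rw [mon_one_right, sign_blockPerm, map_mul, sign_swap hij, sign_swap hjk, Int.units_mul_self, one_pow]

theorem inT_move (hT : (groupFusionSystem (M.S : Subgroup G)).StronglyClosed T) (i j k : Blk p r)
    (hij : i ≠ j) (hjk : j ≠ k) {v : Blk p r → ZMod p} (hv : M.InT T v) :
    M.InT T (fun b => v ((Equiv.swap i j * Equiv.swap j k : Perm (Blk p r))⁻¹ b)) := by
  have := M.inT_mon hT hv _ 1 (sign_swap_mul_swap_block hij hjk)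
  simpa using this

/-- For odd `p`, a subgroup meeting the translations in a nontrivial element contains them all. -/
theorem inT_all_odd (hp2 : p ≠ 2) (hT : (groupFusionSystem (M.S : Subgroup G)).StronglyClosed T)
    {v : Blk p r → ZMod p} (hv : M.InT T v) (hv0 : v ≠ 0) (w : Blk p r → ZMod p) : M.InT T w := by
  classical
  have htwo : (2 : ZMod p) ≠ 0 := by
    intro h
    have h' : ((2 : ℕ) : ZMod p) = 0 := by exact_mod_cast h
    rw [ZMod.natCast_eq_zero_iff] at h'
    rcases (Nat.dvd_prime Nat.prime_two).1 h' with h1 | h1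
    · exact hp.out.ne_one h1
    · exact hp2 h1
  set two : (ZMod p)ˣ := Units.mk0 2 htwo
  have hpair : ∀ (x : Blk p r → ZMod p), M.InT T x → ∀ i k, i ≠ k →
      M.InT T (Pi.single i (x i) + Pi.single k (x k)) := by
    intro x hx i k hik
    set u : Blk p r → (ZMod p)ˣ := Pi.mulSingle i two * Pi.mulSingle k two
    have hsign : sign (mon 1 u : Perm (Pt p r e)) = 1 := by
      show sign (scaleHom (e := e) u) = 1
      rw [map_mul, map_mul]
      show sign (mon 1 _ : Perm (Pt p r e)) * sign (mon 1 _ : Perm (Pt p r e)) = 1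
      rw [sign_scale_mulSingle, sign_scale_mulSingle, Int.units_mul_self]
    have h := M.inT_sub (M.inT_mon hT hx 1 u hsign) hx
    convert h using 1
    funext b
    by_cases hbi : b = i
    · subst hbi; simp [u, two, hik, two_mul]
    · by_cases hbk : b = k
      · subst hbk; simp [u, two, hbi, two_mul]
      · simp [u, hbi, hbk]
  have hsingle : ∀ x : Blk p r → ZMod p, M.InT T x → ∀ j, x j = 0 → ∀ i, M.InT T (Pi.single i (x i)) := by
    intro x hx j hj i
    by_cases hij : i = j
    · subst hij; rw [hj, Pi.single_zero]; exact M.inT_zero T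
    · simpa [hj] using hpair x hx i j hij
  obtain ⟨i, hi⟩ : ∃ i, v i ≠ 0 := by
    by_contra! h
    exact hv0 (funext h)
  obtain ⟨k, hk, -⟩ := M.exists_third i i
  obtain ⟨l, hli, hlk⟩ := M.exists_third i k
  have hone : M.InT T (Pi.single i (v i)) := by
    have h2 := hpair v hv i k hk.symm
    have h3 := hsingle _ h2 l (by simp [hli, hlk]) i
    simpa [hk.symm] using h3
  have hbasis : ∀ j x, M.InT T (Pi.single j x) := by
    have hbase : ∀ x, M.InT T (Pi.single i x) := fun x => by
      convert M.inT_smul hone (x * (v i)⁻¹) using 1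
      funext b
      by_cases hb : b = i
      · subst hb; simp [hi]
      · simp [hb]
    intro j x
    by_cases hji : j = i
    · subst hji; exact hbase x
    obtain ⟨m, hmj, hmi⟩ := M.exists_third j i
    convert M.inT_move hT i j m (Ne.symm hji) hmj.symm (hbase x) using 1
    funext b
    have e1 : (Equiv.swap i j * Equiv.swap j m : Perm (Blk p r))⁻¹ b = i ↔ b = j := by
      rw [Perm.inv_eq_iff_eq, Perm.mul_apply, Equiv.swap_apply_of_ne_of_ne (Ne.symm hji) hmi.symm,
        Equiv.swap_apply_left]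
    by_cases hb : b = j
    · subst hb; rw [e1.2 rfl]; simp
    · rw [Pi.single_eq_of_ne hb, Pi.single_eq_of_ne (fun h => hb (e1.1 h))]
  rw [← Finset.univ_sum_single w]
  exact Finset.sum_induction _ (M.InT T) (fun a b => M.inT_add) (M.inT_zero T) fun b _ => hbasis b _

end Setting

theorem sign_addRight_two : sign (Equiv.addRight (1 : ZMod 2)) = -1 := by decide

theorem sum_eq_zero_of_sign {v : Blk 2 r → ZMod 2} (h : sign (shift v : Perm (Pt 2 r e)) = 1) :
    ∑ b, v b = 0 := by
  classical
  have key : ∀ s : Finset (Blk 2 r), sign (shift (∑ b ∈ s, Pi.single b (v b)) : Perm (Pt 2 r e)) =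
      if (∑ b ∈ s, v b) = 0 then 1 else -1 := by
    intro s
    induction s using Finset.induction with
    | empty => simp [shift_zero]
    | insert b s hb ih =>
      rw [Finset.sum_insert hb, Finset.sum_insert hb, shift_add, map_mul, ih]
      rcases (by decide : ∀ x : ZMod 2, x = 0 ∨ x = 1) (v b) with h0 | h1
      · rw [h0, Pi.single_zero, shift_zero, map_one, one_mul, zero_add]
      · rw [h1, sign_shift_single, show sign (Equiv.addRight (1 : ZMod 2)) = -1 by decide]
        rcases (by decide : ∀ x : ZMod 2, x = 0 ∨ x = 1) (∑ x ∈ s, v x) with hs | hs <;>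
          rw [hs] <;> decide
  have := key Finset.univ
  rw [Finset.univ_sum_single, h] at this
  by_contra h0
  rw [if_neg h0] at this
  exact absurd this (by decide)

namespace Setting

variable [Finite G] {T : Subgroup G}

theorem inT_all_two (M : Setting 2 r e G) (hT : (groupFusionSystem (M.S : Subgroup G)).StronglyClosed T)
    {v : Blk 2 r → ZMod 2} (hv : M.InT T v) (hv0 : v ≠ 0) (w : Blk 2 r → ZMod 2)
    (hw : sign (shift w : Perm (Pt 2 r e)) = 1) : M.InT T w := by
  classical
  have h01 : ∀ x : ZMod 2, x = 0 ∨ x = 1 := by decide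
  -- an element with a zero coordinate gives all pairs
  have fromZero : ∀ x : Blk 2 r → ZMod 2, M.InT T x → ∀ i j, x i = 1 → x j = 0 →
      ∀ a b, a ≠ b → M.InT T (Pi.single a 1 + Pi.single b 1) := by
    intro x hx i j hi hj
    have hij : i ≠ j := fun h => by rw [h, hj] at hi; exact zero_ne_one hi
    have hsign : sign (mon (Equiv.swap i j) 1 : Perm (Pt 2 r e)) = 1 := by
      rw [mon_one_right, sign_blockPerm, sign_swap hij]; rfl
    have hp0 : M.InT T (Pi.single i 1 + Pi.single j 1) := by
      convert M.inT_sub (M.inT_mon hT hx _ 1 hsign) hx using 1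
      funext b
      by_cases hbi : b = i
      · subst hbi
        simp [hij, hi, hj]
      · by_cases hbj : b = j
        · subst hbj
          simp [hbi, hi, hj]
        · simp [hbi, hbj, Equiv.swap_apply_of_ne_of_ne]
    have move : ∀ {a b c : Blk 2 r}, a ≠ b → c ≠ a → c ≠ b →
        M.InT T (Pi.single a 1 + Pi.single b 1) → M.InT T (Pi.single a 1 + Pi.single c 1) := by
      intro a b c hab hca hcb h
      have hs : sign (mon (Equiv.swap b c) 1 : Perm (Pt 2 r e)) = 1 := by
        rw [mon_one_right, sign_blockPerm, sign_swap hcb.symm]; rfl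
      convert M.inT_mon hT h _ 1 hs using 1
      funext x
      by_cases hxb : x = b
      · subst hxb; simp [hab.symm, hca, hcb, hcb.symm]
      · by_cases hxc : x = c
        · subst hxc; simp [hca, hab.symm, hcb]
        · simp [hxb, hxc, Equiv.swap_apply_of_ne_of_ne]
    have toI : ∀ c, c ≠ i → M.InT T (Pi.single i 1 + Pi.single c 1) := fun c hc => by
      by_cases hcj : c = j
      · subst hcj; exact hp0
      · exact move hij hc hcj hp0
    intro a b hab
    by_cases hai : a = i
    · subst hai; exact toI b hab.symm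
    by_cases hbi : b = i
    · subst hbi; rw [add_comm]; exact toI a hai
    have h := toI a hai
    rw [add_comm] at h
    exact move hai (Ne.symm hab) hbi h
  have pairs : ∀ a b, a ≠ b → M.InT T (Pi.single a 1 + Pi.single b 1) := by
    by_cases hz : ∃ j, v j = 0
    · obtain ⟨j, hj⟩ := hz
      obtain ⟨i, hi⟩ : ∃ i, v i ≠ 0 := by
        by_contra! h
        exact hv0 (funext h)
      exact fromZero v hv i j ((h01 _).resolve_left hi) hj
    simp only [not_exists] at hz
    have hall : v = fun _ => 1 := funext fun b => (h01 _).resolve_left (hz b)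
    subst hall
    obtain ⟨t, ht, hte⟩ := hv
    have hr1 : 1 ≤ r := by have := M.hr; omega
    set j₀ : Fin r := ⟨0, hr1⟩
    set σ₀ : Perm (Pt 2 r e) := Equiv.swap (Sum.inl (Sum.inl 0, 1)) (Sum.inl (Sum.inl 1, 0))
    set σ₁ : Perm (Pt 2 r e) := Equiv.swap (Sum.inl (Sum.inl 0, 1)) (Sum.inl (Sum.inl 1, 1))
    set odd : Perm (Pt 2 r e) := shift (Pi.single (Sum.inr j₀) 1)
    have hodd : sign odd = -1 := by
      show sign (shift _ : Perm (Pt 2 r e)) = -1
      rw [sign_shift_single]; decide
    have hz2 : ∀ x : ZMod 2, x = 0 ∨ x = 1 := h01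
    have hY : σ₀ * odd * shift (fun _ => 1) * (σ₀ * odd)⁻¹ =
        shift (Sum.elim (fun _ => 0) fun _ => 1) * blockPerm (rho 1) := by
      rw [mul_inv_eq_iff_eq_mul]
      refine ext_pt (fun b a => ?_) fun x => by simp [σ₀, odd, Equiv.swap_apply_of_ne_of_ne]
      rcases b with y | j
      · rcases hz2 y with rfl | rfl <;> rcases hz2 a with rfl | rfl <;>
          simp [σ₀, odd, Equiv.swap_apply_def, show (1 : ZMod 2) + 1 = 0 from rfl]
      · simp [σ₀, odd, Equiv.swap_apply_of_ne_of_ne, add_comm, add_left_comm, add_assoc]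
    obtain ⟨g, hg⟩ := M.exists_preimage (σ := σ₀ * odd) (by
      rw [map_mul, hodd, show sign σ₀ = -1 from sign_swap (by simp)]; rfl)
    have hy : g * t * g⁻¹ ∈ T := by
      refine conj_mem_of_stronglyClosed_group hT ht (M.mem_S.2 ?_)
      rw [map_mul, map_mul, map_inv, hg, hte, hY]
      exact M.hP ⟨_, _, rfl⟩
    have hxy : M.hom (t * (g * t * g⁻¹)) = shift (Sum.elim (fun _ => 1) fun _ => 0) * blockPerm (rho 1) := by
      rw [map_mul, map_mul, map_mul, map_inv, hg, hte, hY, ← mul_assoc, ← shift_add]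
      congr 2
      funext b
      rcases b with y | j <;> simp [show (1 : ZMod 2) + 1 = 0 from rfl]
    obtain ⟨g', hg'⟩ := M.exists_preimage (σ := σ₁ * odd) (by
      rw [map_mul, hodd, show sign σ₁ = -1 from sign_swap (by simp)]; rfl)
    have hz' : M.hom (g' * (t * (g * t * g⁻¹)) * g'⁻¹) = shift (Sum.elim (fun _ => 1) fun _ => 0) := by
      rw [map_mul, map_mul M.hom g', map_inv, hg', hxy, mul_inv_eq_iff_eq_mul]
      refine ext_pt (fun b a => ?_) fun x => by simp [σ₁, odd, Equiv.swap_apply_of_ne_of_ne]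
      rcases b with y | j
      · rcases hz2 y with rfl | rfl <;> rcases hz2 a with rfl | rfl <;>
          simp [σ₁, odd, Equiv.swap_apply_def, show (1 : ZMod 2) + 1 = 0 from rfl]
      · simp [σ₁, odd, Equiv.swap_apply_of_ne_of_ne]
    have hmem : g' * (t * (g * t * g⁻¹)) * g'⁻¹ ∈ T :=
      conj_mem_of_stronglyClosed_group hT (T.mul_mem ht hy) (M.mem_S.2 (hz' ▸ M.shift_mem_P _))
    exact fromZero _ ⟨_, hmem, hz'⟩ (Sum.inl 0) (Sum.inr j₀) rfl rfl
  set b₀ : Blk 2 r := Sum.inl 0
  have hsum := sum_eq_zero_of_sign hw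
  have : w = ∑ b, (fun x => w b * (Pi.single b 1 + Pi.single b₀ 1 : Blk 2 r → ZMod 2) x) := by
    funext x
    rw [Finset.sum_apply]
    simp only [Pi.add_apply, mul_add, Finset.sum_add_distrib, ← Finset.sum_mul, hsum, zero_mul, add_zero]
    rw [Finset.sum_eq_single x]
    · simp
    · intro b _ hb; simp [Ne.symm hb]
    · simp
  rw [this]
  refine Finset.sum_induction _ (M.InT T) (fun a b => M.inT_add) (M.inT_zero T) fun b _ => ?_
  by_cases hb : b = b₀
  · subst hb
    convert M.inT_zero T using 1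
    funext x
    rw [CharTwo.add_self_eq_zero]
    simp
  · exact M.inT_smul (pairs b b₀ hb) _

theorem inT_all (hT : (groupFusionSystem (M.S : Subgroup G)).StronglyClosed T)
    {v : Blk p r → ZMod p} (hv : M.InT T v) (hv0 : v ≠ 0) (w : Blk p r → ZMod p)
    (hw : sign (shift w : Perm (Pt p r e)) = 1) : M.InT T w := by
  rcases eq_or_ne p 2 with rfl | hp2
  · exact M.inT_all_two hT hv hv0 w hw
  · exact M.inT_all_odd hp2 hT hv hv0 w

theorem mem_T_of_pow_prime (hT : (groupFusionSystem (M.S : Subgroup G)).StronglyClosed T)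
    {v : Blk p r → ZMod p} (hv : M.InT T v) (hv0 : v ≠ 0) {g : G} (hg : g ∈ (M.S : Subgroup G))
    (hgp : g ^ p = 1) : g ∈ T := by
  classical
  by_cases hg1 : g = 1
  · rw [hg1]; exact T.one_mem
  set σ := M.hom g
  have hσ : orderOf σ = p := by
    rw [orderOf_injective M.hom M.inj]
    exact orderOf_eq_prime hgp hg1
  obtain ⟨k, hk⟩ := cycleType_prime_order (σ := σ) (hσ.symm ▸ hp.out)
  rw [hσ] at hk
  have hle : p * (k + 1) ≤ p * (p + r) + e := by
    have h1 := σ.support.card_le_univ
    rw [← sum_cycleType, hk, Multiset.sum_replicate] at h1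
    simp only [Fintype.card_sum, Fintype.card_prod, ZMod.card, Fintype.card_fin, smul_eq_mul] at h1
    rw [mul_comm p (k + 1), mul_comm p (p + r)]
    exact h1
  have hle2 : k + 1 ≤ p + r := by
    by_contra h
    have h' := Nat.mul_le_mul_left p (Nat.succ_le_of_lt (not_le.1 h))
    have := M.he
    have := hp.out.two_le
    rw [Nat.mul_succ] at h'
    omega
  obtain ⟨s, -, hs⟩ := Finset.exists_subset_card_eq (s := (Finset.univ : Finset (Blk p r))) (n := k + 1)
    (by rw [Finset.card_univ, Fintype.card_sum, ZMod.card, Fintype.card_fin]; exact hle2)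
  set f : Blk p r → ZMod p := fun b => if b ∈ s then 1 else 0
  set τ : Perm (Pt p r e) := shift f
  have hsupp : τ.support = (s ×ˢ (Finset.univ : Finset (ZMod p))).map Function.Embedding.inl := by
    ext x
    rcases x with ⟨b, a⟩ | x
    · by_cases hb : b ∈ s <;> simp [τ, f, hb]
    · simp [τ]
  have hτne : τ ≠ 1 := by
    intro h
    have h' := congrArg (fun π : Perm (Pt p r e) => π.support.card) h
    simp only [hsupp, support_one, Finset.card_empty, Finset.card_map, Finset.card_product, hs,
      Finset.card_univ, ZMod.card] at h'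
    exact absurd h' (Nat.mul_ne_zero (Nat.succ_ne_zero k) hp.out.ne_zero)
  have hτo : orderOf τ = p := orderOf_eq_prime (shift_pow_prime f) hτne
  obtain ⟨k', hk'⟩ := cycleType_prime_order (σ := τ) (hτo.symm ▸ hp.out)
  rw [hτo] at hk'
  have hkk : k' = k := by
    have h := sum_cycleType τ
    rw [hk', Multiset.sum_replicate, hsupp, Finset.card_map, Finset.card_product, hs, Finset.card_univ,
      ZMod.card, smul_eq_mul] at h
    have := Nat.eq_of_mul_eq_mul_right hp.out.pos h
    omega
  obtain ⟨ρ, hρ⟩ := isConj_iff.1 (isConj_of_cycleType_eq (hk'.trans (hkk ▸ hk.symm)))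
  have hf : M.InT T f := by
    refine M.inT_all hT hv hv0 f ?_
    have h := congrArg sign hρ
    rw [map_mul, map_mul, map_inv, mul_inv_cancel_comm, M.sign_hom] at h
    exact h
  obtain ⟨t, ht, hte⟩ := hf
  have finish : ∀ (ρ' : Perm (Pt p r e)) (t' : G), t' ∈ T → sign ρ' = 1 →
      ρ' * M.hom t' * ρ'⁻¹ = σ → g ∈ T := by
    intro ρ' t' ht' hs' he'
    obtain ⟨h, rfl⟩ := M.exists_preimage hs'
    rw [← map_inv, ← map_mul, ← map_mul] at he'
    rw [← M.inj he']
    exact conj_mem_of_stronglyClosed_group hT ht' (M.inj he' ▸ hg)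
  rcases Int.units_eq_one_or (sign ρ) with h1 | h1
  · exact finish ρ t ht h1 (by rw [hte]; exact hρ)
  obtain ⟨m, hm, f', hf'⟩ : ∃ m : Perm (Pt p r e), sign m = -1 ∧ ∃ f', m * τ * m⁻¹ = shift f' := by
    rcases eq_or_ne p 2 with rfl | hp2
    · refine ⟨shift (Pi.single (Sum.inl 0) 1), ?_, f, ?_⟩
      · rw [sign_shift_single]; exact sign_addRight_two
      · rw [(shift_comm _ _).eq, mul_inv_cancel_right]
    · obtain ⟨b, hb, -⟩ := M.exists_third (Sum.inl 0) (Sum.inl 0)
      refine ⟨mon (Equiv.swap (Sum.inl 0) b) 1, ?_, _, mon_conj_shift _ _ _⟩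
      rw [mon_one_right, sign_blockPerm, sign_swap (Ne.symm hb),
        (hp.out.odd_of_ne_two hp2).neg_one_pow]
  have hf'T : M.InT T f' := by
    refine M.inT_all hT hv hv0 f' ?_
    rw [← hf', map_mul, map_mul, map_inv, mul_inv_cancel_comm, show sign τ = 1 by rw [show τ = M.hom t from hte.symm, M.sign_hom]]
  obtain ⟨t', ht', hte'⟩ := hf'T
  refine finish (ρ * m⁻¹) t' ht' (by rw [map_mul, map_inv, h1, hm, mul_inv_cancel]) ?_
  rw [hte', ← hf', ← hρ]
  group

/-- A Sylow subgroup of an alternating group has no proper strongly closed subgroup. -/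
theorem stronglyClosed_eq (hT : (groupFusionSystem (M.S : Subgroup G)).StronglyClosed T) :
    T = ⊥ ∨ T = (M.S : Subgroup G) := by
  by_cases hT1 : T = ⊥
  · exact Or.inl hT1
  refine Or.inr (le_antisymm hT.1 ?_)
  haveI : (T.subgroupOf (M.S : Subgroup G)).Normal := ⟨fun x hx s => Subgroup.mem_subgroupOf.2
    ((Subgroup.mem_normalizer_iff.1 (le_normalizer_of_stronglyClosed hT s.2) x).1
      (Subgroup.mem_subgroupOf.1 hx))⟩
  have hne : T.subgroupOf (M.S : Subgroup G) ≠ ⊥ := by
    rw [Ne, Subgroup.subgroupOf_eq_bot]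
    intro h
    exact hT1 ((Subgroup.eq_bot_iff_forall _).2 fun x hx => Subgroup.mem_bot.1 (h.le_bot ⟨hx, hT.1 hx⟩))
  obtain ⟨⟨⟨x, hxS⟩, hxT, hxC⟩, hx1⟩ :=
    (Subgroup.ne_bot_iff_exists_ne_one.1 (H24.inf_center_ne_bot M.S.isPGroup' hne))
  have hx1' : x ≠ 1 := fun h => hx1 (Subtype.ext (Subtype.ext h))
  obtain ⟨v, hv⟩ := M.eq_shift_of_commute_even (g := x) fun k hk => by
    obtain ⟨w, hw⟩ := hk
    exact congrArg Subtype.val (Subgroup.mem_center_iff.1 hxC ⟨k, M.mem_S.2 (hw ▸ M.shift_mem_P w)⟩)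
  have hvT : M.InT T v := ⟨x, Subgroup.mem_subgroupOf.1 hxT, hv⟩
  have hv0 : v ≠ 0 := fun h => hx1' (M.inj (by rw [hv, h, shift_zero, map_one]))
  have key : ∀ k, ∀ g ∈ (M.S : Subgroup G), g ^ p ^ k = 1 → g ∈ T := by
    intro k
    induction k with
    | zero =>
      intro g _ hg
      rw [pow_zero, pow_one] at hg
      rw [hg]; exact T.one_mem
    | succ k ih =>
      intro g hg hgk
      obtain ⟨Q, w, h, hQ, hw, hh, hgwh, hwp, hhk, hsw, -⟩ :=
        splits (p := p) (k := k + 1) (σ := M.hom g) (by rw [← map_pow, hgk, map_one])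
      obtain ⟨gw, hgw⟩ := M.exists_preimage (hsw.trans (M.sign_hom g))
      have hwh : M.hom (gw⁻¹ * g) = h := by rw [map_mul, map_inv, hgw, hgwh, inv_mul_cancel_left]
      obtain ⟨R, hR⟩ := (hQ.comap_of_injective M.hom M.inj).exists_le_sylow
      obtain ⟨c, hc⟩ := MulAction.exists_smul_eq G R M.S
      have hmem : ∀ y, M.hom y ∈ Q → c * y * c⁻¹ ∈ (M.S : Subgroup G) := by
        intro y hy
        rw [← hc, Sylow.coe_subgroup_smul]
        exact ⟨y, hR hy, rfl⟩
      have h1 : c * gw * c⁻¹ ∈ T := by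
        refine M.mem_T_of_pow_prime hT hvT hv0 (hmem _ (hgw ▸ hw)) ?_
        rw [conj_pow, show gw ^ p = 1 from M.inj (by rw [map_pow, hgw, hwp, map_one]), mul_one,
          mul_inv_cancel]
      have h2 : c * (gw⁻¹ * g) * c⁻¹ ∈ T := by
        refine ih _ (hmem _ (hwh ▸ hh)) ?_
        rw [conj_pow, show (gw⁻¹ * g) ^ p ^ k = 1 from M.inj (by
          rw [map_pow, hwh, map_one]; simpa using hhk), mul_one, mul_inv_cancel]
      have h3 : c * g * c⁻¹ ∈ T := by
        have := T.mul_mem h1 h2
        convert this using 1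
        group
      have := conj_mem_of_stronglyClosed_group hT (g := c⁻¹) h3 (by simpa [mul_assoc] using hg)
      simpa [mul_assoc] using this
  intro g hg
  obtain ⟨k, hk⟩ := M.S.isPGroup' ⟨g, hg⟩
  exact key k g hg (congrArg Subtype.val hk)

end Setting

end Cfsg.Agent.H94.AltFusion
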