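import Cfsg.Agent.H94.AltFusion.StronglyClosed

/-! Elements normalizing a Sylow subgroup in standard position are monomial. -/

set_option autoImplicit false

namespace Cfsg.Agent.H94.AltFusion

open Equiv Equiv.Perm Cfsg Cfsg.FusionSystem

variable {p r e : ℕ} [hp : Fact p.Prime] {G : Type*} [Group G] (M : Setting p r e G)

theorem shift_single_apply_self [DecidableEq (Blk p r)] (b : Blk p r) (a x : ZMod p) :
    (shift (Pi.single b x) : Perm (Pt p r e)) (Sum.inl (b, a)) = Sum.inl (b, a + x) := by simp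

theorem shift_single_apply_ne [DecidableEq (Blk p r)] {b c : Blk p r} (h : c ≠ b) (a x : ZMod p) :
    (shift (Pi.single b x) : Perm (Pt p r e)) (Sum.inl (c, a)) = Sum.inl (c, a) := by simp [h]

namespace Setting

/-- For odd `p`, a conjugate of a single block translation inside `P` is a single block translation. -/
theorem eq_shift_single_of_conj (hp2 : p ≠ 2) {σ : Perm (Pt p r e)} {b : Blk p r}
    (hy : σ * shift (Pi.single b 1) * σ⁻¹ ∈ (M.P : Subgroup (Perm (Pt p r e)))) :
    ∃ b' x, σ * shift (Pi.single b 1) * σ⁻¹ = shift (Pi.single b' x) := by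
  classical
  set y := σ * shift (Pi.single b 1) * σ⁻¹
  have hp3 : 3 ≤ p := by
    have := hp.out.two_le
    omega
  set φ : ZMod p → Pt p r e := fun a => σ (Sum.inl (b, a))
  have hφi : Function.Injective φ := fun a a' h => by simpa [φ] using σ.injective h
  have hyφ : ∀ a, y (φ a) = φ (a + 1) := fun a => by simp [y, φ, Perm.mul_apply]
  have hyfix : ∀ z, z ∉ Finset.univ.image φ → y z = z := by
    intro z hz
    obtain ⟨w, rfl⟩ := σ.surjective z
    rw [show y (σ w) = σ (shift (Pi.single b 1) w) by simp [y, Perm.mul_apply]]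
    congr 1
    rcases w with ⟨c, a⟩ | w
    · refine shift_single_apply_ne (fun hcb => hz ?_) a 1
      exact Finset.mem_image.2 ⟨a, Finset.mem_univ _, by simp [φ, hcb]⟩
    · rfl
  have hiter : ∀ (k : ℕ) a, (y ^ k) (φ a) = φ (a + k) := by
    intro k
    induction k with
    | zero => simp
    | succ k ih =>
      intro a
      rw [pow_succ', Perm.mul_apply, ih, hyφ, Nat.cast_succ, add_assoc]
  obtain ⟨b', a₀, x₀, hx₀⟩ : ∃ b' a₀ x, φ x = Sum.inl (b', a₀) := by
    rcases h0 : φ 0 with ⟨b', a₀⟩ | z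
    · exact ⟨b', a₀, 0, h0⟩
    rcases h1 : φ 1 with ⟨b', a₀⟩ | z'
    · exact ⟨b', a₀, 1, h1⟩
    exfalso
    have hz : z = z' := Fin.ext (by have := z.2; have := z'.2; have := M.he; omega)
    exact zero_ne_one (hφi (h0.trans ((congrArg Sum.inr hz).trans h1.symm)))
  set ψ : ZMod p → Pt p r e := fun a => Sum.inl (b', a)
  have hψi : Function.Injective ψ := fun a a' h => by simpa [ψ] using h
  set d : Perm (Pt p r e) := shift (Pi.single b' 1)
  have hd : d ∈ (M.P : Subgroup (Perm (Pt p r e))) := M.shift_mem_P _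
  set Q := Subgroup.closure ({d, y} : Set (Perm (Pt p r e)))
  have hQP : Q ≤ M.P := (Subgroup.closure_le _).2 (by
    rintro _ (rfl | rfl)
    exacts [hd, hy])
  have hQp : IsPGroup p Q := M.P.isPGroup'.to_le hQP
  have hdQ : d ∈ Q := Subgroup.subset_closure (Set.mem_insert _ _)
  have hyQ : y ∈ Q := Subgroup.subset_closure (Set.mem_insert_of_mem _ rfl)
  set U := Finset.univ.image ψ ∪ Finset.univ.image φ
  have hψmem : ∀ a, ψ a ∈ U := fun a => Finset.mem_union_left _ (Finset.mem_image.2 ⟨a, Finset.mem_univ _, rfl⟩)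
  have hφmem : ∀ a, φ a ∈ U := fun a => Finset.mem_union_right _ (Finset.mem_image.2 ⟨a, Finset.mem_univ _, rfl⟩)
  have hdU : ∀ z ∈ U, d z ∈ U := by
    intro z hz
    rcases z with ⟨c, a⟩ | z
    · by_cases hc : c = b'
      · subst hc
        rw [show d (Sum.inl (c, a)) = ψ (a + 1) from shift_single_apply_self c a 1]
        exact hψmem _
      · rw [show d (Sum.inl (c, a)) = Sum.inl (c, a) from shift_single_apply_ne hc a 1]
        exact hz
    · exact hz
  have hyU : ∀ z ∈ U, y z ∈ U := by
    intro z hz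
    by_cases h : z ∈ Finset.univ.image φ
    · obtain ⟨a, -, rfl⟩ := Finset.mem_image.1 h
      rw [hyφ]; exact hφmem _
    · rw [hyfix z h]; exact hz
  have hQfix : ∀ q ∈ Q, ∀ z ∉ U, q z = z := by
    intro q hq z hz
    have hle : Q ≤ MulAction.stabilizer (Perm (Pt p r e)) z := (Subgroup.closure_le _).2 (by
      rintro _ (rfl | rfl)
      · show d z = z
        rcases z with ⟨c, a⟩ | z
        · exact shift_single_apply_ne (fun hc => hz (by rw [hc]; exact hψmem a)) a 1
        · rfl
      · exact hyfix z fun h => hz (Finset.mem_union_right _ h))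
    exact hle hq
  have hQU : ∀ q ∈ Q, ∀ z ∈ U, q z ∈ U := fun q hq z hz => by
    by_contra h
    exact h (by rwa [q.injective (hQfix q hq _ h)])
  by_cases hsame : Finset.univ.image φ ⊆ Finset.univ.image ψ
  · -- the same block
    have hUeq : U = Finset.univ.image ψ := Finset.union_eq_left.2 hsame
    let emb : Q →* Perm (ZMod p) :=
      { toFun := fun q => Equiv.ofBijective
          (fun a => (Sum.elim (fun z => z.2) (fun _ => 0) ((q : Perm (Pt p r e)) (ψ a))))
          (Finite.injective_iff_bijective.1 fun a a' h => by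
            have h1 := hQU q q.2 _ (hψmem a)
            have h2 := hQU q q.2 _ (hψmem a')
            rw [hUeq] at h1 h2
            obtain ⟨c, -, hc⟩ := Finset.mem_image.1 h1
            obtain ⟨c', -, hc'⟩ := Finset.mem_image.1 h2
            simp only [← hc, ← hc', ψ, Sum.elim_inl] at h
            exact hψi ((q : Perm (Pt p r e)).injective (by rw [← hc, ← hc', h])))
        map_one' := Equiv.ext fun a => rfl
        map_mul' := fun q q' => Equiv.ext fun a => by
          have h1 := hQU q' q'.2 _ (hψmem a)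
          rw [hUeq] at h1
          obtain ⟨c, -, hc⟩ := Finset.mem_image.1 h1
          show Sum.elim _ _ (((q * q' : Q) : Perm (Pt p r e)) (ψ a)) =
            Sum.elim _ _ ((q : Perm (Pt p r e)) (ψ (Sum.elim _ _ ((q' : Perm (Pt p r e)) (ψ a)))))
          rw [Subgroup.coe_mul, Perm.mul_apply, ← hc]
          rfl }
    have hemb : Function.Injective emb := by
      rw [← MonoidHom.ker_eq_bot_iff, Subgroup.eq_bot_iff_forall]
      intro q hq
      apply Subtype.ext
      refine Equiv.ext fun z => ?_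
      by_cases hz : z ∈ U
      · rw [hUeq] at hz
        obtain ⟨a, -, rfl⟩ := Finset.mem_image.1 hz
        have h1 := hQU q q.2 _ (hψmem a)
        rw [hUeq] at h1
        obtain ⟨c, -, hc⟩ := Finset.mem_image.1 h1
        have h2 : emb q a = a := by rw [MonoidHom.mem_ker.1 hq]; rfl
        change Sum.elim _ _ ((q : Perm (Pt p r e)) (ψ a)) = a at h2
        rw [← hc] at h2 ⊢
        simp only [ψ, Sum.elim_inl] at h2
        rw [h2]
        rfl
      · exact hQfix q q.2 z hz
    have hdvd : Nat.card Q ∣ p.factorial := by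
      have h := Subgroup.card_dvd_of_injective emb hemb
      rwa [Nat.card_eq_fintype_card (α := Perm (ZMod p)), Fintype.card_perm, ZMod.card] at h
    obtain ⟨k, hk⟩ := IsPGroup.iff_card.1 hQp
    have hk1 : k ≤ 1 := by
      by_contra h
      have h2 : p * p ∣ p.factorial := by
        refine Nat.dvd_trans ?_ hdvd
        rw [hk, ← pow_two]
        exact pow_dvd_pow p (not_le.1 h)
      rw [← Nat.mul_factorial_pred hp.out.ne_zero] at h2
      have h3 := (Nat.Prime.dvd_factorial hp.out).1 (Nat.dvd_of_mul_dvd_mul_left hp.out.pos h2)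
      omega
    have hd1 : d ≠ 1 := by
      intro h
      have := congrFun (shift_injective (h.trans shift_zero.symm)) b'
      simp at this
    have hQeq : Q = Subgroup.zpowers d := by
      refine (Subgroup.eq_of_le_of_card_ge (Subgroup.zpowers_le.2 hdQ) ?_).symm
      rw [Nat.card_zpowers, orderOf_eq_prime (shift_pow_prime _) hd1, hk]
      exact (Nat.pow_le_pow_right hp.out.pos hk1).trans (pow_one p).le
    obtain ⟨j, hj⟩ := (mem_powers_iff_mem_zpowers).2 (hQeq.le hyQ)
    refine ⟨b', (j : ZMod p), hj.symm.trans ?_⟩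
    show d ^ j = _
    rw [shift_pow, ← Pi.single_smul, nsmul_one]
  · -- two blocks: a transitive `p`-group on fewer than `2p` points
    exfalso
    obtain ⟨z₁, hz₁, hz₁'⟩ := Finset.not_subset.1 hsame
    have horb : MulAction.orbit Q (ψ a₀) = (U : Set (Pt p r e)) := by
      refine Set.Subset.antisymm (by rintro _ ⟨q, rfl⟩; exact hQU q q.2 _ (hψmem a₀)) fun z hz => ?_
      rcases Finset.mem_union.1 hz with h | h
      · obtain ⟨a, -, rfl⟩ := Finset.mem_image.1 h
        obtain ⟨k, hk⟩ := ZMod.natCast_zmod_surjective (n := p) (a - a₀)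
        refine ⟨⟨d ^ k, Q.pow_mem hdQ k⟩, ?_⟩
        show (d ^ k) (ψ a₀) = ψ a
        rw [shift_pow, ← Pi.single_smul, nsmul_one, hk]
        show shift _ (Sum.inl (b', a₀)) = _
        rw [shift_single_apply_self, add_sub_cancel]
      · obtain ⟨a, -, rfl⟩ := Finset.mem_image.1 h
        obtain ⟨k, hk⟩ := ZMod.natCast_zmod_surjective (n := p) (a - x₀)
        refine ⟨⟨y ^ k, Q.pow_mem hyQ k⟩, ?_⟩
        show (y ^ k) (ψ a₀) = φ a
        rw [show ψ a₀ = φ x₀ from hx₀.symm, hiter, hk, add_sub_cancel]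
    obtain ⟨k, hk⟩ := hQp.card_orbit (ψ a₀)
    rw [horb, Nat.card_coe_set_eq, Set.ncard_coe_finset] at hk
    have hc1 : (Finset.univ.image ψ).card = p := by
      rw [Finset.card_image_of_injective _ hψi, Finset.card_univ, ZMod.card]
    have hc2 : (Finset.univ.image φ).card = p := by
      rw [Finset.card_image_of_injective _ hφi, Finset.card_univ, ZMod.card]
    have hlt : p < U.card := by
      refine hc1.symm.trans_lt ?_
      refine Finset.card_lt_card ⟨Finset.subset_union_left, fun h => hz₁' (h ?_)⟩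
      exact Finset.mem_union_right _ hz₁
    have hlt2 : U.card < 2 * p := by
      have h := Finset.card_union_add_card_inter (Finset.univ.image ψ) (Finset.univ.image φ)
      rw [hc1, hc2] at h
      have : 0 < (Finset.univ.image ψ ∩ Finset.univ.image φ).card := Finset.card_pos.2 ⟨ψ a₀,
        Finset.mem_inter.2 ⟨Finset.mem_image.2 ⟨a₀, Finset.mem_univ _, rfl⟩,
          Finset.mem_image.2 ⟨x₀, Finset.mem_univ _, hx₀⟩⟩⟩
      show (Finset.univ.image ψ ∪ Finset.univ.image φ).card < 2 * p
      omega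
    rw [hk] at hlt hlt2
    rcases Nat.lt_or_ge k 2 with hk2 | hk2
    · have := Nat.pow_le_pow_right hp.out.pos (Nat.lt_succ_iff.1 hk2)
      rw [pow_one] at this
      omega
    · have h := Nat.pow_le_pow_right hp.out.pos hk2
      rw [pow_two] at h
      have := Nat.mul_le_mul_right p hp3
      omega

end Setting

/-- Two transpositions sharing a point multiply to an element of order three. -/
theorem not_two_pow_swap_mul_swap {α : Type*} [DecidableEq α] [Fintype α] {a b c : α} (hab : a ≠ b)
    (hbc : b ≠ c) (hac : a ≠ c) (k : ℕ) : (Equiv.swap a b * Equiv.swap a c) ^ 2 ^ k ≠ 1 := by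
  intro h
  have h3 : orderOf (Equiv.swap a b * Equiv.swap a c) = 3 :=
    (isThreeCycle_swap_mul_swap_same hab hac hbc).orderOf
  have := orderOf_dvd_of_pow_eq_one h
  rw [h3] at this
  exact absurd (Nat.prime_three.dvd_of_dvd_pow this) (by norm_num)

namespace Setting

/-- For `p = 2`, a conjugate of a single block translation normalizing `S` is a single block translation. -/
theorem eq_shift_single_of_conj_two (M : Setting 2 r e G) {σ : Perm (Pt 2 r e)} {b : Blk 2 r}
    (hy : ∀ k ∈ (M.S : Subgroup G),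
      σ * shift (Pi.single b 1) * σ⁻¹ * M.hom k * (σ * shift (Pi.single b 1) * σ⁻¹)⁻¹ ∈
        (M.P : Subgroup (Perm (Pt 2 r e)))) :
    ∃ b' x, σ * shift (Pi.single b 1) * σ⁻¹ = shift (Pi.single b' x) := by
  classical
  have h01 : ∀ z : ZMod 2, z = 0 ∨ z = 1 := by decide
  have hone : (1 : ZMod 2) + 1 = 0 := rfl
  have hswap : ∀ (c : Blk 2 r) (a : ZMod 2),
      (shift (Pi.single c 1) : Perm (Pt 2 r e)) = Equiv.swap (Sum.inl (c, a)) (Sum.inl (c, a + 1)) := by
    intro c a
    refine ext_pt (fun d z => ?_) fun z => by simp [Equiv.swap_apply_of_ne_of_ne]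
    by_cases hd : d = c
    · subst hd
      rcases h01 a with rfl | rfl <;> rcases h01 z with rfl | rfl <;> simp [hone]
    · simp [hd, Equiv.swap_apply_of_ne_of_ne]
  have hconj : σ * shift (Pi.single b 1) * σ⁻¹ = Equiv.swap (σ (Sum.inl (b, 0))) (σ (Sum.inl (b, 1))) := by
    rw [hswap b 0, zero_add, Equiv.swap_apply_apply]
  have hne : σ (Sum.inl (b, 0)) ≠ σ (Sum.inl (b, 1)) := fun h => by simpa using σ.injective h
  rw [hconj] at hy ⊢
  generalize σ (Sum.inl (b, 0)) = x, σ (Sum.inl (b, 1)) = y at hy hne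
  -- arrange that `x` lies in a block
  obtain ⟨b₁, a, y', hxy, hne'⟩ : ∃ (b₁ : Blk 2 r) (a : ZMod 2) (y' : Pt 2 r e),
      Equiv.swap x y = Equiv.swap (Sum.inl (b₁, a)) y' ∧ Sum.inl (b₁, a) ≠ y' := by
    rcases x with ⟨b₁, a⟩ | z
    · exact ⟨b₁, a, y, rfl, hne⟩
    rcases y with ⟨b₁, a⟩ | z'
    · exact ⟨b₁, a, _, Equiv.swap_comm _ _, hne.symm⟩
    exact absurd (congrArg Sum.inr (Fin.ext (by have := z.2; have := z'.2; have := M.he; omega))) hne
  rw [hxy] at hy ⊢
  set xb : Pt 2 r e := Sum.inl (b₁, a + 1)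
  by_cases hyb : y' = xb
  · subst hyb
    exact ⟨b₁, 1, (hswap b₁ a).symm⟩
  exfalso
  obtain ⟨k, hk1, hk2⟩ := M.exists_third b₁ (Sum.elim (fun z => z.1) (fun _ => b₁) y')
  obtain ⟨g, hg⟩ := M.exists_preimage (sign_shift_pair (p := 2) (r := r) (e := e) b₁ k)
  have hgS : g ∈ (M.S : Subgroup G) := M.mem_S.2 (hg ▸ M.shift_mem_P _)
  have hm := (M.P : Subgroup (Perm (Pt 2 r e))).mul_mem (hy g hgS) (M.shift_mem_P (Pi.single b₁ 1 + Pi.single k 1))
  rw [hg, Equiv.swap_inv] at hm
  set s := Equiv.swap (Sum.inl (b₁, a) : Pt 2 r e) y'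
  have hxx : (Sum.inl (b₁, a) : Pt 2 r e) ≠ xb := by simp [xb]
  have e1 : s * shift (Pi.single b₁ 1) * s = Equiv.swap y' xb := by
    rw [hswap b₁ a]
    have := Equiv.swap_apply_apply s (Sum.inl (b₁, a)) xb
    rw [Equiv.swap_apply_left, Equiv.swap_apply_of_ne_of_ne hxx.symm (Ne.symm hyb), Equiv.swap_inv] at this
    exact this.symm
  have e2 : s * shift (Pi.single k 1) = shift (Pi.single k 1) * s := by
    have h := Equiv.swap_apply_apply (shift (Pi.single k 1)) (Sum.inl (b₁, a) : Pt 2 r e) y'
    have hfix : (shift (Pi.single k 1) : Perm (Pt 2 r e)) y' = y' := by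
      rcases y' with ⟨c, z⟩ | z
      · exact shift_single_apply_ne (Ne.symm hk2) z 1
      · rfl
    rw [shift_single_apply_ne hk1.symm, hfix] at h
    exact eq_mul_inv_iff_mul_eq.1 h
  have hs : s * s = 1 := Equiv.swap_mul_self _ _
  have hm' : Equiv.swap y' xb * Equiv.swap (Sum.inl (b₁, a)) xb ∈
      (M.P : Subgroup (Perm (Pt 2 r e))) := by
    convert hm using 1
    rw [← e1, ← hswap b₁ a, shift_add]
    have hk2' : (shift (Pi.single k 1) : Perm (Pt 2 r e)) * shift (Pi.single k 1) = 1 := by
      have := shift_pow_prime (e := e) (Pi.single k (1 : ZMod 2) : Blk 2 r → ZMod 2)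
      rwa [pow_two] at this
    calc s * shift (Pi.single b₁ 1) * s * shift (Pi.single b₁ 1)
        = s * shift (Pi.single b₁ 1) * s * (shift (Pi.single k 1) * shift (Pi.single k 1)) *
            shift (Pi.single b₁ 1) := by rw [hk2', mul_one]
      _ = s * shift (Pi.single b₁ 1) * (s * shift (Pi.single k 1)) *
            (shift (Pi.single k 1) * shift (Pi.single b₁ 1)) := by group
      _ = s * (shift (Pi.single b₁ 1) * shift (Pi.single k 1)) * s *
            (shift (Pi.single b₁ 1) * shift (Pi.single k 1)) := by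
          rw [e2, (shift_comm (Pi.single k 1) (Pi.single b₁ 1)).eq]; group
  rw [Equiv.swap_comm y', Equiv.swap_comm (Sum.inl (b₁, a))] at hm'
  obtain ⟨j, hj⟩ := M.P.isPGroup' ⟨_, hm'⟩
  exact not_two_pow_swap_mul_swap (Ne.symm hyb) hne'.symm hxx.symm j (congrArg Subtype.val hj)

/-- An element normalizing `S` is monomial up to a translation. -/
theorem eq_mon_of_mem_normalizer {g : G} (hg : g ∈ Subgroup.normalizer ((M.S : Subgroup G) : Set G)) :
    ∃ w π u, M.hom g = shift w * mon π u := by
  classical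
  refine eq_mon_of_normalizes M.he fun b => ?_
  obtain ⟨b', x, h⟩ : ∃ b' x, M.hom g * shift (Pi.single b 1) * (M.hom g)⁻¹ = shift (Pi.single b' x) := by
    rcases eq_or_ne p 2 with rfl | hp2
    · refine M.eq_shift_single_of_conj_two fun k hk => ?_
      set t : Perm (Pt 2 r e) := shift (Pi.single b 1)
      have hk0 : g⁻¹ * k * g ∈ (M.S : Subgroup G) := by
        have := (Subgroup.mem_normalizer_iff.1 (inv_mem hg) k).1 hk
        rwa [inv_inv] at this
      obtain ⟨k', hk'⟩ := M.exists_preimage (σ := t * M.hom (g⁻¹ * k * g) * t⁻¹)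
        (by rw [map_mul, map_mul, map_inv, mul_inv_cancel_comm, M.sign_hom])
      have hk'S : k' ∈ (M.S : Subgroup G) := M.mem_S.2 (hk' ▸ (M.P : Subgroup (Perm (Pt 2 r e))).mul_mem
        ((M.P : Subgroup (Perm (Pt 2 r e))).mul_mem (M.shift_mem_P _) (M.mem_S.1 hk0))
        ((M.P : Subgroup (Perm (Pt 2 r e))).inv_mem (M.shift_mem_P _)))
      have := M.mem_S.1 ((Subgroup.mem_normalizer_iff.1 hg k').1 hk'S)
      rw [map_mul, map_mul, map_inv, hk', map_mul, map_mul, map_inv] at this
      convert this using 1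
      group
    · refine M.eq_shift_single_of_conj hp2 ?_
      obtain ⟨k, hk⟩ := M.exists_preimage (sign_shift_of_odd (e := e) hp2 (Pi.single b 1))
      have := M.mem_S.1 ((Subgroup.mem_normalizer_iff.1 hg k).1 (M.mem_S.2 (hk ▸ M.shift_mem_P _)))
      rwa [map_mul, map_mul, map_inv, hk] at this
  exact ⟨b', x, mul_inv_eq_iff_eq_mul.1 h⟩

end Setting

end Cfsg.Agent.H94.AltFusion
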